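import Mathlib
import Cfsg.Agent.Lib.PGroup.ZJ
import Cfsg.Agent.Lib.Coprime.Coset
import Cfsg.Agent.Lib.Components.PConstrained

/-!
# Inverted `p`-elements: lifting through homomorphisms, and `2`-elements acting on `p`-groups
-/

namespace Cfsg.Agent.Lib.InvNorm.Lift

open Subgroup
open Cfsg.Agent.Lib.PGroup.Replacement (mem_normalizer_of_conj_mem)
open Cfsg.Agent.Lib.Components.PConstrained
open scoped Pointwise

variable {p : ℕ} [hp : Fact p.Prime]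

section Gen

variable {G : Type*} [Group G]

/-- `y ∈ T`, `y ≠ 1`, inverted by an element of `H`. -/
def HasInv (H T : Subgroup G) : Prop := ∃ y ∈ T, y ≠ 1 ∧ ∃ h ∈ H, h * y * h⁻¹ = y⁻¹

theorem HasInv.mono {H H' T T' : Subgroup G} (h : HasInv H T) (hH : H ≤ H') (hT : T ≤ T') :
    HasInv H' T' := by
  obtain ⟨y, hy, hy1, u, hu, e⟩ := h
  exact ⟨y, hT hy, hy1, u, hH hu, e⟩

/-- Odd powers invert too. -/
theorem odd_pow_inv {a b : G} (h : a * b * a⁻¹ = b⁻¹) {m : ℕ} (hm : Odd m) :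
    a ^ m * b * (a ^ m)⁻¹ = b⁻¹ := by
  have h2 : a * b⁻¹ * a⁻¹ = b := by
    have : a * b⁻¹ * a⁻¹ = (a * b * a⁻¹)⁻¹ := by group
    rw [this, h, inv_inv]
  have hc : Commute (a ^ 2) b⁻¹ := by
    show a ^ 2 * b⁻¹ = b⁻¹ * a ^ 2
    have h3 : a ^ 2 * b⁻¹ = a * (a * b⁻¹ * a⁻¹) * a := by
      rw [pow_two]
      group
    rw [h3, h2]
    have h4 : a * b = (a * b * a⁻¹) * a := by group
    rw [h4, h, pow_two, mul_assoc]
  obtain ⟨l, rfl⟩ := hm
  have h5 : a ^ (2 * l + 1) = (a ^ 2) ^ l * a := by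
    rw [pow_succ, pow_mul]
  rw [h5]
  have h6 : (a ^ 2) ^ l * a * b * ((a ^ 2) ^ l * a)⁻¹ = (a ^ 2) ^ l * (a * b * a⁻¹) * ((a ^ 2) ^ l)⁻¹ := by
    group
  rw [h6, h]
  have h7 := (hc.pow_left l).eq
  rw [h7]
  group

/-- `2`-element `u` acting on `D`, nontrivial: an element of `D` inverted by a power of `u`. -/
theorem exists_inv_of_two_elt [Finite G] {D : Subgroup G} {s : G}
    (hs : s ∈ normalizer (D : Set G)) (h2 : ∃ k : ℕ, s ^ 2 ^ k = 1)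
    (hnt : s ∉ centralizer (D : Set G)) :
    ∃ y ∈ D, y ≠ 1 ∧ ∃ n : ℕ, s ^ n * y * (s ^ n)⁻¹ = y⁻¹ := by
  classical
  have hex : ∃ r : ℕ, s ^ 2 ^ r ∈ centralizer (D : Set G) := by
    obtain ⟨k, hk⟩ := h2
    exact ⟨k, by rw [hk]; exact one_mem _⟩
  set r := Nat.find hex with hr
  have hr1 : s ^ 2 ^ r ∈ centralizer (D : Set G) := Nat.find_spec hex
  have hr0 : r ≠ 0 := by
    intro h0
    rw [h0, pow_zero, pow_one] at hr1
    exact hnt hr1
  obtain ⟨r', hr'⟩ := Nat.exists_eq_succ_of_ne_zero hr0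
  have hr2 : s ^ 2 ^ r' ∉ centralizer (D : Set G) := Nat.find_min hex (by omega)
  set u := s ^ 2 ^ r' with hu
  have hu2 : u * u ∈ centralizer (D : Set G) := by
    have : u * u = s ^ 2 ^ r := by
      rw [hu, ← pow_add, hr', pow_succ]
      congr 1
      omega
    rw [this]
    exact hr1
  have hun : u ∈ normalizer (D : Set G) := pow_mem hs _
  obtain ⟨d, hd, hne⟩ : ∃ d ∈ D, d * u ≠ u * d := by
    by_contra hcon
    push Not at hcon
    exact hr2 (mem_centralizer_iff.2 hcon)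
  have hud : u * d * u⁻¹ ∈ D := (mem_normalizer_iff.1 hun d).1 hd
  refine ⟨d⁻¹ * (u * d * u⁻¹), mul_mem (inv_mem hd) hud, ?_, 2 ^ r', ?_⟩
  · intro h1
    apply hne
    have h3 : u * d * u⁻¹ = d := by
      rw [inv_mul_eq_one] at h1
      exact h1.symm
    rw [mul_inv_eq_iff_eq_mul] at h3
    exact h3.symm
  · rw [← hu]
    have h4 := mem_centralizer_iff.1 hu2 d hd
    have h5 : u * (d⁻¹ * (u * d * u⁻¹)) * u⁻¹ = (u * d * u⁻¹)⁻¹ * ((u * u) * d * (u * u)⁻¹) := by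
      group
    rw [h5, ← h4]
    group

end Gen

section Fin

variable {H : Type*} [Group H] [Finite H]

/-- The Frattini argument for a subgroup `M` and an element normalizing it. -/
theorem exists_frattini {M : Subgroup H} (E : Sylow p ↥M) {t : H}
    (ht : t ∈ normalizer (M : Set H)) :
    ∃ m ∈ M, ∃ n ∈ normalizer (((E : Subgroup M).map M.subtype : Subgroup H) : Set H), t = m * n := by
  let c : MulAut ↥M := Subgroup.normalizerMonoidHom M ⟨t, ht⟩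
  have hc : ∀ x : M, (c x : H) = t * x * t⁻¹ := fun x => rfl
  obtain ⟨m, hm⟩ := MulAction.exists_smul_eq ↥M E (c • E)
  refine ⟨m, m.2, (m : H)⁻¹ * t, ?_, by group⟩
  apply mem_normalizer_of_conj_mem
  rintro _ ⟨e, he, rfl⟩
  have h1 : c e ∈ ((c • E : Sylow p ↥M) : Subgroup M) := by
    rw [Sylow.pointwise_smul_def]
    exact Subgroup.smul_mem_pointwise_smul _ _ _ he
  rw [← hm, Sylow.coe_subgroup_smul] at h1
  obtain ⟨e', he', hee⟩ := h1
  refine ⟨e', he', ?_⟩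
  have h2 : ((c e : M) : H) = m * e' * (m : H)⁻¹ := by
    rw [← hee]
    rfl
  rw [hc] at h2
  show (e' : H) = (m : H)⁻¹ * t * e * ((m : H)⁻¹ * t)⁻¹
  have h3 : (m : H)⁻¹ * t * e * ((m : H)⁻¹ * t)⁻¹ = (m : H)⁻¹ * (t * e * t⁻¹) * m := by group
  rw [h3, h2]
  group

/-- A `p`-element of `H` is conjugate into a given Sylow subgroup. -/
theorem exists_conj_mem_sylow (T : Sylow p H) {x : H} (hx : ∃ k : ℕ, x ^ p ^ k = 1) :
    ∃ c : H, c * x * c⁻¹ ∈ (T : Subgroup H) := by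
  obtain ⟨k, hk⟩ := hx
  have hZ : IsPGroup p (zpowers x) := by
    obtain ⟨j, -, hj⟩ := (Nat.dvd_prime_pow hp.out).1 (orderOf_dvd_of_pow_eq_one hk)
    apply IsPGroup.of_card (n := j)
    rw [Nat.card_zpowers, hj]
  obtain ⟨Q, hQ⟩ := hZ.exists_le_sylow
  obtain ⟨c, hc⟩ := MulAction.exists_smul_eq H Q T
  refine ⟨c, ?_⟩
  rw [← hc, Sylow.coe_subgroup_smul]
  exact Subgroup.smul_mem_pointwise_smul _ _ _ (hQ (mem_zpowers x))

/-- **Lifting inverted elements.** -/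
theorem lift_inv {X : Type*} [Group X] (hp2 : p ≠ 2) (φ : H →* X) {y t : H}
    (hy : ∃ k : ℕ, y ^ p ^ k = 1) (hy1 : φ y ≠ 1) (ht : φ t * φ y * (φ t)⁻¹ = (φ y)⁻¹) :
    ∃ x : H, x ≠ 1 ∧ (∃ k : ℕ, x ^ p ^ k = 1) ∧ ∃ n : H, n * x * n⁻¹ = x⁻¹ := by
  classical
  -- `2`-parts
  have htwo : ∀ s : H, φ s * φ y * (φ s)⁻¹ = (φ y)⁻¹ →
      ∃ s₂ : H, (∃ m : ℕ, s₂ = s ^ m) ∧ (∃ r : ℕ, s₂ ^ 2 ^ r = 1) ∧
        φ s₂ * φ y * (φ s₂)⁻¹ = (φ y)⁻¹ := by
    intro s hs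
    obtain ⟨r, m, hm, hord⟩ := Nat.exists_eq_pow_mul_and_not_dvd (orderOf_pos s).ne' 2 (by norm_num)
    have hodd : Odd m := Nat.odd_iff.2 (by omega)
    refine ⟨s ^ m, ⟨m, rfl⟩, ⟨r, ?_⟩, ?_⟩
    · rw [← pow_mul, mul_comm, ← hord, pow_orderOf_eq_one]
    · rw [map_pow]
      exact odd_pow_inv hs hodd
  obtain ⟨t₂, -, -, ht₂⟩ := htwo t ht
  -- the subgroup `B`
  let B : Subgroup H := (zpowers (φ y)).comap φ
  have hyB : y ∈ B := mem_zpowers (φ y)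
  have hcommB : ∀ b ∈ B, φ b * φ y = φ y * φ b := by
    rintro b ⟨i, hi⟩
    have : φ b = φ y ^ i := hi.symm
    rw [this]
    exact (Commute.refl (φ y)).zpow_left i
  have ht₂N : t₂ ∈ normalizer (B : Set H) := by
    apply mem_normalizer_of_conj_mem
    rintro b ⟨i, hi⟩
    have h1 : φ b = φ y ^ i := hi.symm
    show φ (t₂ * b * t₂⁻¹) ∈ zpowers (φ y)
    rw [map_mul, map_mul, map_inv, h1, ← conj_zpow, ht₂]
    exact zpow_mem (inv_mem (mem_zpowers _)) _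
  obtain ⟨E⟩ : Nonempty (Sylow p ↥B) := inferInstance
  set EG : Subgroup H := (E : Subgroup B).map B.subtype with hEG
  have hEGp : IsPGroup p EG := E.isPGroup'.map _
  obtain ⟨m, hmB, n, hnN, hte⟩ := exists_frattini E ht₂N
  have hnφ : φ n * φ y * (φ n)⁻¹ = (φ y)⁻¹ := by
    have h1 : n = m⁻¹ * t₂ := by rw [hte]; group
    rw [h1, map_mul, map_inv]
    have h2 : (φ m)⁻¹ * φ t₂ * φ y * ((φ m)⁻¹ * φ t₂)⁻¹ =
        (φ m)⁻¹ * (φ t₂ * φ y * (φ t₂)⁻¹) * φ m := by group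
    rw [h2, ht₂]
    have h3 : φ m * (φ y)⁻¹ = (φ y)⁻¹ * φ m :=
      (show Commute (φ m) (φ y) from hcommB m hmB).inv_right.eq
    rw [mul_assoc, ← h3, inv_mul_cancel_left]
  obtain ⟨n₂, ⟨l, hl⟩, ⟨r, hr⟩, hn₂⟩ := htwo n hnφ
  have hn₂N : n₂ ∈ normalizer (EG : Set H) := by
    rw [hl]
    exact pow_mem hnN _
  -- an element of `EG` over `φ y`
  have hpart : ∃ e ∈ EG, φ e = φ y := by
    obtain ⟨c, hc⟩ := exists_conj_mem_sylow E (x := ⟨y, hyB⟩) (by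
      obtain ⟨k, hk⟩ := hy
      exact ⟨k, Subtype.ext (by simpa using hk)⟩)
    refine ⟨_, ⟨_, hc, rfl⟩, ?_⟩
    simp only [Subgroup.subtype_apply, Subgroup.coe_mul, Subgroup.coe_inv, map_mul, map_inv]
    rw [hcommB c.1 c.2, mul_inv_cancel_right]
  obtain ⟨e, heE, hee⟩ := hpart
  -- the centralizing lift
  have hn2c : φ (n₂ * n₂) * φ y = φ y * φ (n₂ * n₂) := by
    rw [map_mul]
    have h1 : φ n₂ * φ y = (φ y)⁻¹ * φ n₂ := mul_inv_eq_iff_eq_mul.1 hn₂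
    have h2 : φ n₂ * (φ y)⁻¹ = φ y * φ n₂ := by
      have h3 : φ n₂ * (φ y)⁻¹ * (φ n₂)⁻¹ = φ y := by
        have : φ n₂ * (φ y)⁻¹ * (φ n₂)⁻¹ = (φ n₂ * φ y * (φ n₂)⁻¹)⁻¹ := by group
        rw [this, hn₂, inv_inv]
      exact mul_inv_eq_iff_eq_mul.1 h3
    rw [mul_assoc, h1, ← mul_assoc, h2, mul_assoc]
  set A : Subgroup H := zpowers (n₂ * n₂) with hA
  have hAN : A ≤ normalizer (EG : Set H) := by
    rw [hA, zpowers_le]
    exact mul_mem hn₂N hn₂N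
  have hAc : ∀ a ∈ A, φ a * φ y = φ y * φ a := by
    have hle : A ≤ (centralizer ({φ y} : Set X)).comap φ := by
      rw [hA, zpowers_le]
      show φ (n₂ * n₂) ∈ centralizer ({φ y} : Set X)
      rw [mem_centralizer_singleton_iff]
      exact hn2c
    intro a ha
    have h1 := hle ha
    have h2 : φ a ∈ centralizer ({φ y} : Set X) := h1
    rw [mem_centralizer_singleton_iff] at h2
    exact h2
  have hcard : (Nat.card A).Coprime (Nat.card EG) := by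
    obtain ⟨k, hk⟩ := IsPGroup.iff_card.1 hEGp
    rw [hk]
    apply Nat.Coprime.pow_right
    have h1 : (n₂ * n₂) ^ 2 ^ r = 1 := by
      rw [← pow_two, ← pow_mul, mul_comm, pow_mul, hr, one_pow]
    have h2 : Nat.card A ∣ 2 ^ r := by
      rw [hA, Nat.card_zpowers]
      exact orderOf_dvd_of_pow_eq_one h1
    refine Nat.Coprime.coprime_dvd_left h2 (Nat.Coprime.pow_left r ?_)
    exact ((Nat.Prime.coprime_iff_not_dvd Nat.prime_two).2 (fun h3 =>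
      hp2 ((Nat.prime_dvd_prime_iff_eq Nat.prime_two hp.out).1 h3).symm))
  have hNA : A ≤ normalizer ((EG ⊓ φ.ker : Subgroup H) : Set H) := by
    intro a ha
    apply mem_normalizer_of_conj_mem
    intro w hw
    obtain ⟨hw1, hw2⟩ := Subgroup.mem_inf.1 hw
    refine Subgroup.mem_inf.2 ⟨(mem_normalizer_iff.1 (hAN ha) w).1 hw1, ?_⟩
    exact (inferInstance : φ.ker.Normal).conj_mem w hw2 a
  obtain ⟨c, ⟨hcE, hcC⟩, hcN⟩ := Cfsg.Agent.Lib.Coprime.Coset.exists_centralizer_mem_coset hAN hcard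
    (Or.inr (isPGroup_isSolvable hEGp)) (inf_le_left : EG ⊓ φ.ker ≤ EG) hNA e heE (by
      intro a ha
      have hae : a * e * a⁻¹ ∈ EG := (mem_normalizer_iff.1 (hAN ha) e).1 heE
      refine Subgroup.mem_inf.2 ⟨mul_mem (inv_mem heE) hae, ?_⟩
      rw [MonoidHom.mem_ker, map_mul, map_mul, map_mul, map_inv, map_inv, hee, hAc a ha]
      group)
  have hφc : φ c = φ y := by
    have h1 := (Subgroup.mem_inf.1 hcN).2
    rw [MonoidHom.mem_ker, map_mul, map_inv, hee, inv_mul_eq_one] at h1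
    exact h1.symm
  have hn₂c : n₂ * c * n₂⁻¹ ∈ EG := (mem_normalizer_iff.1 hn₂N c).1 hcE
  have hxE : c⁻¹ * (n₂ * c * n₂⁻¹) ∈ EG := mul_mem (inv_mem hcE) hn₂c
  have hφ2 : φ y * φ y ≠ 1 := by
    intro h1
    obtain ⟨k, hk⟩ := hy
    have h2 : orderOf (φ y) ∣ p ^ k := orderOf_dvd_of_pow_eq_one (by rw [← map_pow, hk, map_one])
    have h3 : orderOf (φ y) ∣ 2 := orderOf_dvd_of_pow_eq_one (by rw [pow_two, h1])
    have h4 : Nat.Coprime (p ^ k) 2 := Nat.Coprime.pow_left k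
      ((Nat.coprime_primes hp.out Nat.prime_two).2 hp2)
    have h5 := Nat.Coprime.eq_one_of_dvd (h4.coprime_dvd_left h2) h3
    exact hy1 (orderOf_eq_one_iff.1 h5)
  refine ⟨c⁻¹ * (n₂ * c * n₂⁻¹), ?_, ?_, n₂, ?_⟩
  · intro h1
    have h2 := congrArg φ h1
    rw [map_mul, map_inv, map_mul, map_mul, map_inv, hφc, hn₂, map_one] at h2
    apply hφ2
    have h3 : φ y * φ y = ((φ y)⁻¹ * (φ y)⁻¹)⁻¹ := by simp [mul_inv_rev]
    rw [h3, h2, inv_one]
  · obtain ⟨k, hk⟩ := hEGp ⟨_, hxE⟩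
    exact ⟨k, by simpa using congrArg Subtype.val hk⟩
  · have h4 := mem_centralizer_iff.1 hcC (n₂ * n₂) (mem_zpowers _)
    have h5 : n₂ * (c⁻¹ * (n₂ * c * n₂⁻¹)) * n₂⁻¹ =
        (n₂ * c * n₂⁻¹)⁻¹ * ((n₂ * n₂) * c * (n₂ * n₂)⁻¹) := by group
    rw [h5, h4]
    group

end Fin

end Cfsg.Agent.Lib.InvNorm.Lift
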