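import Mathlib

/-!
# Involutions in a group generated by two quadratic elements are central

`R` a ring, `A² = B² = 0`, `a = 1 + A`, `b = 1 + B`. For `g ∈ ⟨a, b⟩` the element `g + g⁻¹` commutes
with `A` and `B`. Hence an involution of `⟨a, b⟩` commutes with `a` and `b` when `2` is invertible.
-/

set_option linter.unusedSimpArgs false

namespace Cfsg.Agent.Lib.InvNorm.Ring

variable {R : Type*} [Ring R]

/-- Commuting with `A` and `B`. -/
def Comm2 (A B c : R) : Prop := c * A = A * c ∧ c * B = B * c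

theorem Comm2.add {A B c d : R} (h : Comm2 A B c) (h' : Comm2 A B d) : Comm2 A B (c + d) :=
  ⟨by rw [add_mul, mul_add, h.1, h'.1], by rw [add_mul, mul_add, h.2, h'.2]⟩

theorem Comm2.mul {A B c d : R} (h : Comm2 A B c) (h' : Comm2 A B d) : Comm2 A B (c * d) :=
  ⟨by rw [mul_assoc, h'.1, ← mul_assoc, h.1, mul_assoc],
    by rw [mul_assoc, h'.2, ← mul_assoc, h.2, mul_assoc]⟩

theorem Comm2.zsmul {A B c : R} (h : Comm2 A B c) (n : ℤ) : Comm2 A B (n • c) :=
  ⟨by rw [smul_mul_assoc, mul_smul_comm, h.1], by rw [smul_mul_assoc, mul_smul_comm, h.2]⟩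

theorem Comm2.nsmul {A B c : R} (h : Comm2 A B c) (n : ℕ) : Comm2 A B (n • c) :=
  ⟨by rw [smul_mul_assoc, mul_smul_comm, h.1], by rw [smul_mul_assoc, mul_smul_comm, h.2]⟩

theorem Comm2.sub {A B c d : R} (h : Comm2 A B c) (h' : Comm2 A B d) : Comm2 A B (c - d) :=
  ⟨by rw [sub_mul, mul_sub, h.1, h'.1], by rw [sub_mul, mul_sub, h.2, h'.2]⟩

theorem comm2_one {A B : R} : Comm2 A B 1 := ⟨by simp, by simp⟩

theorem comm2_zero {A B : R} : Comm2 A B 0 := ⟨by simp, by simp⟩

theorem comm2_z {A B : R} (hA : A * A = 0) (hB : B * B = 0) : Comm2 A B (A * B + B * A) := by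
  constructor
  · have h1 : (A * B + B * A) * A = A * B * A + B * (A * A) := by noncomm_ring
    have h2 : A * (A * B + B * A) = (A * A) * B + A * B * A := by noncomm_ring
    rw [h1, h2, hA]
    simp
  · have h1 : (A * B + B * A) * B = A * (B * B) + B * A * B := by noncomm_ring
    have h2 : B * (A * B + B * A) = B * A * B + (B * B) * A := by noncomm_ring
    rw [h1, h2, hB]
    simp

/-- The normal form. -/
def Rep (A B g g' : R) : Prop :=
  ∃ f g₁ h₁ k : R, Comm2 A B f ∧ Comm2 A B g₁ ∧ Comm2 A B h₁ ∧ Comm2 A B k ∧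
    g = f + g₁ * A + h₁ * B + k * (A * B) ∧ g' = f - g₁ * A - h₁ * B + k * (B * A)

theorem rep_one {A B : R} : Rep A B 1 1 :=
  ⟨1, 0, 0, 0, comm2_one, comm2_zero, comm2_zero, comm2_zero, by simp, by simp⟩

theorem Rep.mulA {A B g g' : R} (hA : A * A = 0) (hB : B * B = 0) (h : Rep A B g g') (e : ℤ) :
    Rep A B (g * (1 + e • A)) ((1 - e • A) * g') := by
  obtain ⟨f, g₁, h₁, k, hf, hg, hh, hk, rfl, rfl⟩ := h
  have hz := comm2_z hA hB
  refine ⟨f + e • (h₁ * (A * B + B * A)), g₁ + e • f + e • (k * (A * B + B * A)), h₁, k - e • h₁,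
    hf.add ((hh.mul hz).zsmul e), (hg.add (hf.zsmul e)).add ((hk.mul hz).zsmul e), hh,
    hk.sub (hh.zsmul e), ?_, ?_⟩
  · rw [← sub_eq_zero]
    have : (f + g₁ * A + h₁ * B + k * (A * B)) * (1 + e • A) -
        (f + e • (h₁ * (A * B + B * A)) + (g₁ + e • f + e • (k * (A * B + B * A))) * A + h₁ * B +
          (k - e • h₁) * (A * B)) = e • (g₁ * (A * A)) - e • (k * (B * (A * A))) := by
      simp only [mul_add, add_mul, sub_mul, mul_sub, smul_mul_assoc, mul_smul_comm, smul_add, smul_sub,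
        smul_neg, neg_mul, mul_neg, one_mul, mul_one, mul_assoc]
      abel
    rw [this, hA]
    simp
  · rw [← sub_eq_zero]
    have h1 : (1 - e • A) * (f - g₁ * A - h₁ * B + k * (B * A)) =
        f - g₁ * A - h₁ * B + k * (B * A) - e • (A * f) + e • ((A * g₁) * A) + e • ((A * h₁) * B)
          - e • ((A * k) * (B * A)) := by
      simp only [mul_add, add_mul, sub_mul, mul_sub, smul_mul_assoc, mul_smul_comm, smul_add, smul_sub,
        smul_neg, neg_mul, mul_neg, one_mul, mul_one, mul_assoc]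
      abel
    rw [h1, ← hf.1, ← hg.1, ← hh.1, ← hk.1]
    have : f - g₁ * A - h₁ * B + k * (B * A) - e • (f * A) + e • ((g₁ * A) * A) + e • ((h₁ * A) * B)
          - e • ((k * A) * (B * A)) -
        (f + e • (h₁ * (A * B + B * A)) - (g₁ + e • f + e • (k * (A * B + B * A))) * A - h₁ * B +
          (k - e • h₁) * (B * A)) = e • (g₁ * (A * A)) + e • (k * (B * (A * A))) := by
      simp only [mul_add, add_mul, sub_mul, mul_sub, smul_mul_assoc, mul_smul_comm, smul_add, smul_sub,
        smul_neg, neg_mul, mul_neg, one_mul, mul_one, mul_assoc]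
      abel
    rw [this, hA]
    simp

theorem Rep.mulB {A B g g' : R} (hB : B * B = 0) (h : Rep A B g g') (e : ℤ) :
    Rep A B (g * (1 + e • B)) ((1 - e • B) * g') := by
  obtain ⟨f, g₁, h₁, k, hf, hg, hh, hk, rfl, rfl⟩ := h
  refine ⟨f, g₁, h₁ + e • f, k + e • g₁, hf, hg, hh.add (hf.zsmul e), hk.add (hg.zsmul e), ?_, ?_⟩
  · rw [← sub_eq_zero]
    have : (f + g₁ * A + h₁ * B + k * (A * B)) * (1 + e • B) -
        (f + g₁ * A + (h₁ + e • f) * B + (k + e • g₁) * (A * B)) =
        e • (h₁ * (B * B)) + e • (k * (A * (B * B))) := by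
      simp only [mul_add, add_mul, sub_mul, mul_sub, smul_mul_assoc, mul_smul_comm, smul_add, smul_sub,
        smul_neg, neg_mul, mul_neg, one_mul, mul_one, mul_assoc]
      abel
    rw [this, hB]
    simp
  · rw [← sub_eq_zero]
    have h1 : (1 - e • B) * (f - g₁ * A - h₁ * B + k * (B * A)) =
        f - g₁ * A - h₁ * B + k * (B * A) - e • (B * f) + e • ((B * g₁) * A) + e • ((B * h₁) * B)
          - e • ((B * k) * (B * A)) := by
      simp only [mul_add, add_mul, sub_mul, mul_sub, smul_mul_assoc, mul_smul_comm, smul_add, smul_sub,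
        smul_neg, neg_mul, mul_neg, one_mul, mul_one, mul_assoc]
      abel
    rw [h1, ← hf.2, ← hg.2, ← hh.2, ← hk.2]
    have : f - g₁ * A - h₁ * B + k * (B * A) - e • (f * B) + e • ((g₁ * B) * A) + e • ((h₁ * B) * B)
          - e • ((k * B) * (B * A)) -
        (f - g₁ * A - (h₁ + e • f) * B + (k + e • g₁) * (B * A)) =
        e • (h₁ * (B * B)) - e • (k * ((B * B) * A)) := by
      simp only [mul_add, add_mul, sub_mul, mul_sub, smul_mul_assoc, mul_smul_comm, smul_add, smul_sub,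
        smul_neg, neg_mul, mul_neg, one_mul, mul_one, mul_assoc]
      abel
    rw [this, hB]
    simp

/-- The sum `g + g'` commutes with `A`, `B`. -/
theorem Rep.add_comm2 {A B g g' : R} (hA : A * A = 0) (hB : B * B = 0) (h : Rep A B g g') :
    Comm2 A B (g + g') := by
  obtain ⟨f, g₁, h₁, k, hf, hg, hh, hk, rfl, rfl⟩ := h
  have : f + g₁ * A + h₁ * B + k * (A * B) + (f - g₁ * A - h₁ * B + k * (B * A)) =
      f + f + k * (A * B + B * A) := by noncomm_ring
  rw [this]
  exact (hf.add hf).add (hk.mul (comm2_z hA hB))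

/-- All elements of `⟨a, b⟩` have the normal form. -/
theorem rep_closure {X : Type*} [Group X] (ρ : X →* R) {a b : X} {A B : R} (hA : A * A = 0)
    (hB : B * B = 0) (ha : ρ a = 1 + A) (hb : ρ b = 1 + B) {g : X}
    (hg : g ∈ Subgroup.closure {a, b}) : Rep A B (ρ g) (ρ g⁻¹) := by
  have haI : ρ a⁻¹ = 1 - A := by
    have h1 : ρ a⁻¹ * ρ a = 1 := by rw [← map_mul]; simp
    have h2 : (1 + A) * (1 - A) = 1 := by
      have : (1 + A) * (1 - A) = 1 - A * A := by noncomm_ring
      rw [this, hA, sub_zero]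
    calc ρ a⁻¹ = ρ a⁻¹ * ((1 + A) * (1 - A)) := by rw [h2, mul_one]
      _ = (ρ a⁻¹ * ρ a) * (1 - A) := by rw [ha, mul_assoc]
      _ = 1 - A := by rw [h1, one_mul]
  have hbI : ρ b⁻¹ = 1 - B := by
    have h1 : ρ b⁻¹ * ρ b = 1 := by rw [← map_mul]; simp
    have h2 : (1 + B) * (1 - B) = 1 := by
      have : (1 + B) * (1 - B) = 1 - B * B := by noncomm_ring
      rw [this, hB, sub_zero]
    calc ρ b⁻¹ = ρ b⁻¹ * ((1 + B) * (1 - B)) := by rw [h2, mul_one]
      _ = (ρ b⁻¹ * ρ b) * (1 - B) := by rw [hb, mul_assoc]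
      _ = 1 - B := by rw [h1, one_mul]
  induction hg using Subgroup.closure_induction_right with
  | one => simpa using rep_one
  | mul_right x y hx hy ih =>
    rw [mul_inv_rev, map_mul, map_mul]
    rcases hy with rfl | rfl
    · have := ih.mulA hA hB 1
      simp only [one_smul] at this
      rwa [ha, haI]
    · have := ih.mulB hB 1
      simp only [one_smul] at this
      rwa [hb, hbI]
  | mul_inv_cancel x y hx hy ih =>
    rw [mul_inv_rev, inv_inv, map_mul, map_mul]
    rcases hy with rfl | rfl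
    · have := ih.mulA hA hB (-1)
      simp only [neg_smul, one_smul, sub_neg_eq_add, ← sub_eq_add_neg] at this
      rwa [ha, haI]
    · have := ih.mulB hB (-1)
      simp only [neg_smul, one_smul, sub_neg_eq_add, ← sub_eq_add_neg] at this
      rwa [hb, hbI]

/-- **Involutions of `⟨a, b⟩` are central.** -/
theorem comm_of_inv {X : Type*} [Group X] (ρ : X →* R) {a b : X} {A B : R} (hA : A * A = 0)
    (hB : B * B = 0) (ha : ρ a = 1 + A) (hb : ρ b = 1 + B) {m : ℕ} (hm : (2 * m : ℕ) • (1 : R) = 1)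
    {t : X} (ht : t ∈ Subgroup.closure {a, b}) (ht2 : ρ t * ρ t = 1) :
    ρ t * ρ a = ρ a * ρ t := by
  have h1 := (rep_closure ρ hA hB ha hb ht).add_comm2 hA hB
  have h2 : ρ t⁻¹ = ρ t := by
    calc ρ t⁻¹ = ρ t⁻¹ * (ρ t * ρ t) := by rw [ht2, mul_one]
      _ = (ρ t⁻¹ * ρ t) * ρ t := by rw [mul_assoc]
      _ = ρ t := by rw [← map_mul]; simp
  rw [h2] at h1
  have h3 : ρ t = m • (ρ t + ρ t) := by
    have h4 : (2 * m : ℕ) • ρ t = ρ t := by
      calc (2 * m : ℕ) • ρ t = ((2 * m : ℕ) • (1 : R)) * ρ t := by rw [smul_mul_assoc, one_mul]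
        _ = ρ t := by rw [hm, one_mul]
    calc ρ t = (2 * m : ℕ) • ρ t := h4.symm
      _ = m • (ρ t + ρ t) := by rw [← two_nsmul, smul_smul, mul_comm]
  have h5 : Comm2 A B (ρ t) := by
    rw [h3]
    exact h1.nsmul m
  rw [ha, mul_add, add_mul, mul_one, one_mul, h5.1]

end Cfsg.Agent.Lib.InvNorm.Ring
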