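import Mathlib
import Cfsg.Agent.Lib.PGroup.QuadG
import Cfsg.Agent.S0274

/-!
# A `2`-element of `⟨a, b⟩` acting nontrivially

Variants of `exists_quotient_rep_full`, `ambient_data_full` recording that the kernel of the
representation contains the centralizer of `P`. Consequence (with Dickson): two quadratic elements
generating a non-`p`-group on `P` produce a `2`-element not centralizing `P`.
-/

namespace Cfsg.Agent.Lib.InvNorm.TwoElt

open Cfsg Matrix Cfsg.Agent.Lib.PSL2.Basic Cfsg.Agent.Lib.PGroup.QuadPair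
open Cfsg.Agent.Lib.Solvable.MinimalNormal Cfsg.Agent.Lib.Basic.SylowUtil
open Cfsg.Agent.Lib.PGroup.QuadReduce Cfsg.Agent.Lib.PGroup.QuadSections
open scoped MatrixGroups

universe u

section Reduce

variable {D : Type u} [Group D] [Finite D] {p : ℕ} [hp : Fact p.Prime]

/-- **Reduction to `SL₂(E)`**, keeping track of `h`. -/
theorem exists_quotient_rep_cent (P : Subgroup D) [hPn : P.Normal] (hP : IsPGroup p P) (a b h : D)
    (hgen : Subgroup.closure {a, b} ⊔ P = ⊤)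
    (hqa : ∀ v ∈ P, a * (a * v * a⁻¹ * v⁻¹) * a⁻¹ = a * v * a⁻¹ * v⁻¹)
    (hqb : ∀ v ∈ P, b * (b * v * b⁻¹ * v⁻¹) * b⁻¹ = b * v * b⁻¹ * v⁻¹)
    (hh : h ∈ Subgroup.closure {a, b}) (hcop : Nat.Coprime (orderOf h) p)
    (hhP : h ∉ Subgroup.centralizer (P : Set D)) :
    ∃ (Γ : Type u) (_ : Group Γ) (_ : Finite Γ) (q : D →* Γ) (E : Type u) (_ : Field E)
      (_ : Fintype E) (_ : CharP E p) (s : E) (π : Γ →* SL(2, E)) (θ : (Fin 2 → E) → Γ),
      Function.Surjective q ∧ s ≠ 0 ∧ π (q a) = y 1 ∧ π (q b) = x s ∧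
        (∀ c d, θ (c + d) = θ c * θ d) ∧ Function.Injective θ ∧
        (∀ g c, θ ((π g).1 *ᵥ c) = g * θ c * g⁻¹) ∧ (∀ c, π (θ c) = 1) ∧ (∀ v ∈ P, π (q v) = 1) ∧
        π (q h) ≠ 1 ∧ (∀ g ∈ Subgroup.centralizer (P : Set D), π (q g) = 1) := by
  classical
  -- choose `U₂`
  let 𝒰 : Set (Subgroup D) := {U | U.Normal ∧ U ≤ P ∧ ¬ ∀ x ∈ P, h * x * h⁻¹ * x⁻¹ ∈ U}
  have h𝒰 : 𝒰.Nonempty := by
    refine ⟨⊥, inferInstance, bot_le, fun hall => hhP ?_⟩
    rw [Subgroup.mem_centralizer_iff]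
    intro x hx
    have h1 := hall x hx
    rw [Subgroup.mem_bot] at h1
    have h2 : h * x * h⁻¹ = x := by
      rw [mul_inv_eq_one] at h1
      exact h1
    rw [mul_inv_eq_iff_eq_mul] at h2
    exact h2.symm
  obtain ⟨U₂, ⟨hU₂n, hU₂P, hU₂h⟩, hU₂max⟩ :=
    Set.exists_max_image 𝒰 (fun U => Nat.card U) (Set.toFinite _) h𝒰
  let Γ := D ⧸ U₂
  let q : D →* Γ := QuotientGroup.mk' U₂
  have hq : Function.Surjective q := QuotientGroup.mk'_surjective U₂
  have hqeq : ∀ x : D, q x = 1 ↔ x ∈ U₂ := fun x => QuotientGroup.eq_one_iff x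
  let Pb : Subgroup Γ := P.map q
  have hPbn : Pb.Normal := Subgroup.Normal.map hPn q hq
  have hPbp : IsPGroup p Pb := hP.map q
  have hmemP : ∀ x ∈ P, h * x * h⁻¹ * x⁻¹ ∈ P := fun x hx =>
    mul_mem (hPn.conj_mem x hx h) (inv_mem hx)
  have hPb1 : Pb ≠ ⊥ := by
    intro hb
    apply hU₂h
    intro x hx
    have : q (h * x * h⁻¹ * x⁻¹) ∈ Pb := Subgroup.mem_map_of_mem q (hmemP x hx)
    rw [hb, Subgroup.mem_bot] at this
    exact (hqeq _).1 this
  obtain ⟨V, hVmin, hVPb⟩ := exists_isMinNormal_le Pb hPbn hPb1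
  obtain ⟨hVcen, hVea⟩ := minNormal_ea hPbp hVmin hVPb
  have hVn : V.Normal := hVmin.1
  have hV1 : V ≠ ⊥ := hVmin.2.1
  have hPbC : Pb ≤ Subgroup.centralizer (V : Set Γ) := by
    rw [Subgroup.le_centralizer_iff]
    exact hVcen
  -- `h` acts nontrivially on `V`
  have hqh : q h ∉ Subgroup.centralizer (V : Set Γ) := by
    intro hc
    let T : Subgroup D := V.comap q
    have hTn : T.Normal := Subgroup.Normal.comap hVn q
    have hU₂T : U₂ ≤ T := by
      intro x hx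
      show q x ∈ V
      rw [(hqeq x).2 hx]
      exact one_mem _
    have hTP : T ≤ P := by
      intro x hx
      obtain ⟨y, hy, hyx⟩ := hVPb hx
      have h1 : y⁻¹ * x ∈ U₂ := QuotientGroup.eq.1 hyx
      have h2 : x = y * (y⁻¹ * x) := by group
      rw [h2]
      exact mul_mem hy (hU₂P h1)
    have hTne : T ≠ U₂ := by
      intro hTU
      apply hV1
      rw [eq_bot_iff]
      intro v hv
      obtain ⟨x, rfl⟩ := hq v
      have : x ∈ T := hv
      rw [hTU] at this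
      rw [Subgroup.mem_bot]
      exact (hqeq x).2 this
    have hnot : ∀ x ∈ P, h * x * h⁻¹ * x⁻¹ ∈ T := by
      by_contra hcon
      have hmem : T ∈ 𝒰 := ⟨hTn, hTP, hcon⟩
      exact hTne (Subgroup.eq_of_le_of_card_ge hU₂T (hU₂max T hmem)).symm
    apply hU₂h
    intro x hx
    rw [← hqeq]
    set hb := q h with hhb
    set xb := q x with hxb
    have hc1 : hb * xb * hb⁻¹ * xb⁻¹ ∈ V := by
      have := hnot x hx
      have h3 : q (h * x * h⁻¹ * x⁻¹) ∈ V := this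
      simpa [map_mul, map_inv] using h3
    set c := hb * xb * hb⁻¹ * xb⁻¹ with hcdef
    have hcc : hb * c * hb⁻¹ = c := by
      have := Subgroup.mem_centralizer_iff.1 hc c hc1
      rw [← this]
      group
    have hpow : ∀ k : ℕ, hb ^ k * xb * (hb ^ k)⁻¹ = c ^ k * xb := by
      intro k
      induction k with
      | zero => simp
      | succ k ih =>
        have h4 : hb * xb * hb⁻¹ = c * xb := by rw [hcdef]; group
        calc hb ^ (k + 1) * xb * (hb ^ (k + 1))⁻¹ = hb * (hb ^ k * xb * (hb ^ k)⁻¹) * hb⁻¹ := by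
              rw [pow_succ']
              group
          _ = hb * (c ^ k * xb) * hb⁻¹ := by rw [ih]
          _ = (hb * c * hb⁻¹) ^ k * (hb * xb * hb⁻¹) := by
              rw [conj_pow]
              group
          _ = c ^ k * (c * xb) := by rw [hcc, h4]
          _ = c ^ (k + 1) * xb := by
              rw [pow_succ]
              exact (mul_assoc _ _ _).symm
    have hordh : hb ^ orderOf h = 1 := by
      rw [hhb, ← map_pow, pow_orderOf_eq_one, map_one]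
    have h5 := hpow (orderOf h)
    rw [hordh] at h5
    have h6 : c ^ orderOf h = 1 := by
      simpa using h5
    obtain ⟨m, hm⟩ := hPbp ⟨c, hVPb hc1⟩
    have h7 : c ^ p ^ m = 1 := by
      have := congrArg Subtype.val hm
      simpa using this
    have h8 : Nat.Coprime (orderOf h) (p ^ m) := Nat.Coprime.pow_right m hcop
    have h9 : orderOf c = 1 := by
      have h10 := orderOf_dvd_of_pow_eq_one h6
      have h11 := orderOf_dvd_of_pow_eq_one h7
      exact Nat.eq_one_of_dvd_coprimes h8 h10 h11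
    have h12 : c = 1 := orderOf_eq_one_iff.1 h9
    simpa [map_mul, map_inv] using h12
  have hne : ¬ (q a ∈ Subgroup.centralizer (V : Set Γ) ∧ q b ∈ Subgroup.centralizer (V : Set Γ)) := by
    rintro ⟨h1, h2⟩
    apply hqh
    have hle : Subgroup.closure {a, b} ≤ (Subgroup.centralizer (V : Set Γ)).comap q := by
      rw [Subgroup.closure_le]
      rintro g (rfl | rfl)
      · exact h1
      · exact h2
    exact hle hh
  have hgen' : Subgroup.closure {q a, q b} ⊔ Subgroup.centralizer (V : Set Γ) = ⊤ := by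
    rw [eq_top_iff]
    intro γ _
    obtain ⟨g, rfl⟩ := hq γ
    have hg : g ∈ Subgroup.closure {a, b} ⊔ P := by rw [hgen]; trivial
    have hle : (Subgroup.closure {a, b} ⊔ P).map q ≤
        Subgroup.closure {q a, q b} ⊔ Subgroup.centralizer (V : Set Γ) := by
      rw [Subgroup.map_sup]
      refine sup_le_sup ?_ hPbC
      rw [MonoidHom.map_closure, Subgroup.closure_le]
      rintro _ ⟨z, rfl | rfl, rfl⟩
      · exact Subgroup.subset_closure (Or.inl rfl)
      · exact Subgroup.subset_closure (Or.inr rfl)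
    exact hle (Subgroup.mem_map_of_mem q hg)
  have hquad : ∀ z : D, (∀ v ∈ P, z * (z * v * z⁻¹ * v⁻¹) * z⁻¹ = z * v * z⁻¹ * v⁻¹) →
      ∀ v ∈ V, q z * (q z * v * (q z)⁻¹ * v⁻¹) * (q z)⁻¹ = q z * v * (q z)⁻¹ * v⁻¹ := by
    intro z hz v hv
    obtain ⟨x, hx, rfl⟩ := hVPb hv
    simp only [← map_mul, ← map_inv]
    rw [hz x hx]
  obtain ⟨E, fE, tE, cE, s, π, θ, hs, hπa, hπb, hθadd, hθinj, hθr, hθc, hker⟩ :=
    exists_sl2_rep V hVea hV1 (q a) (q b) hgen' hVmin.2.2 (hquad a hqa) (hquad b hqb) hne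
  refine ⟨Γ, inferInstance, inferInstance, q, E, fE, tE, cE, s, π, θ, hq, hs, hπa, hπb, hθadd, hθinj,
    hθc, ?_, ?_, ?_, ?_⟩
  · intro c
    rw [hker]
    have h1 : θ c ∈ V := by
      have : θ c ∈ Set.range θ := ⟨c, rfl⟩
      rwa [hθr] at this
    refine Subgroup.mem_centralizer_iff.2 fun v hv => ?_
    exact congrArg Subtype.val (hVea.1.is_comm.comm ⟨v, hv⟩ ⟨θ c, h1⟩)
  · intro v hv
    rw [hker]
    exact hPbC (Subgroup.mem_map_of_mem q hv)
  · intro h1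
    exact hqh ((hker _).1 h1)
  · intro g hg
    rw [hker]
    refine Subgroup.mem_centralizer_iff.2 fun v hv => ?_
    obtain ⟨x, hx, rfl⟩ := hVPb hv
    have h1 := Subgroup.mem_centralizer_iff.1 hg x hx
    rw [← map_mul, ← map_mul, h1]

end Reduce

section Ambient

variable {p : ℕ} [hp : Fact p.Prime] {G : Type u} [Group G] [Finite G]

/-- **Ambient form, data**: a pair `a, b` normalizing a `p`-subgroup `P`, acting quadratically, with a
`p'`-element of `⟨a, b⟩` not centralizing `P`: a quotient of `⟨a, b⟩ P` maps to `SL₂(E)`. The image of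
`h` is nontrivial. -/
theorem ambient_data_cent (P : Subgroup G)
    (hP : IsPGroup p P) (a b h : G) (han : a ∈ Subgroup.normalizer (P : Set G))
    (hbn : b ∈ Subgroup.normalizer (P : Set G))
    (hqa : ∀ v ∈ P, a * (a * v * a⁻¹ * v⁻¹) * a⁻¹ = a * v * a⁻¹ * v⁻¹)
    (hqb : ∀ v ∈ P, b * (b * v * b⁻¹ * v⁻¹) * b⁻¹ = b * v * b⁻¹ * v⁻¹)
    (hh : h ∈ Subgroup.closure {a, b}) (hcop : Nat.Coprime (orderOf h) p)
    (hhP : h ∉ Subgroup.centralizer (P : Set G))
    (haD : a ∈ Subgroup.closure {a, b} ⊔ P) (hbD : b ∈ Subgroup.closure {a, b} ⊔ P) :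
    ∃ (Γ : Type u) (_ : Group Γ) (_ : Finite Γ) (q : ↥(Subgroup.closure {a, b} ⊔ P) →* Γ)
      (E : Type u) (_ : Field E)
      (_ : Fintype E) (_ : CharP E p) (s : E) (π : Γ →* SL(2, E)) (θ : (Fin 2 → E) → Γ),
      Function.Surjective q ∧ s ≠ 0 ∧ π (q ⟨a, haD⟩) = y 1 ∧ π (q ⟨b, hbD⟩) = x s ∧
        (∀ c d, θ (c + d) = θ c * θ d) ∧ Function.Injective θ ∧
        (∀ g c, θ ((π g).1 *ᵥ c) = g * θ c * g⁻¹) ∧ (∀ c, π (θ c) = 1) ∧
        (∀ v : ↥(Subgroup.closure {a, b} ⊔ P), v.1 ∈ P → π (q v) = 1) ∧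
        π (q ⟨h, Subgroup.mem_sup_left hh⟩) ≠ 1 ∧
        (∀ g : ↥(Subgroup.closure {a, b} ⊔ P), g.1 ∈ Subgroup.centralizer (P : Set G) → π (q g) = 1) := by
  classical
  let Y : Subgroup G := Subgroup.closure {a, b}
  let D : Subgroup G := Y ⊔ P
  have haY : a ∈ Y := Subgroup.subset_closure (Or.inl rfl)
  have hbY : b ∈ Y := Subgroup.subset_closure (Or.inr rfl)
  have hYD : Y ≤ D := le_sup_left
  have hPD : P ≤ D := le_sup_right
  have hYN : Y ≤ Subgroup.normalizer (P : Set G) := by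
    rw [Subgroup.closure_le]
    rintro g (rfl | rfl)
    · exact han
    · exact hbn
  have hDN : D ≤ Subgroup.normalizer (P : Set G) :=
    sup_le hYN Subgroup.le_normalizer
  let a₀ : D := ⟨a, haD⟩
  let b₀ : D := ⟨b, hbD⟩
  let h₀ : D := ⟨h, hYD hh⟩
  let P₀ : Subgroup D := P.subgroupOf D
  have hP₀n : P₀.Normal := by
    refine ⟨fun n hn g => ?_⟩
    have hg := Subgroup.mem_normalizer_iff.1 (hDN g.2) n.1
    exact hg.1 hn
  have hP₀ : IsPGroup p P₀ := hP.comap_subtype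
  have hmap : (Subgroup.closure {a₀, b₀}).map D.subtype = Y := by
    rw [MonoidHom.map_closure]
    congr 1
    rw [Set.image_pair]
    rfl
  have hmapP : P₀.map D.subtype = P := Subgroup.map_subgroupOf_eq_of_le hPD
  have hgen : Subgroup.closure {a₀, b₀} ⊔ P₀ = ⊤ := by
    apply Subgroup.map_injective D.subtype_injective
    rw [Subgroup.map_sup, hmap, hmapP, ← MonoidHom.range_eq_map, Subgroup.range_subtype]
  have hqa₀ : ∀ v ∈ P₀, a₀ * (a₀ * v * a₀⁻¹ * v⁻¹) * a₀⁻¹ = a₀ * v * a₀⁻¹ * v⁻¹ := fun v hv =>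
    Subtype.ext (hqa v.1 hv)
  have hqb₀ : ∀ v ∈ P₀, b₀ * (b₀ * v * b₀⁻¹ * v⁻¹) * b₀⁻¹ = b₀ * v * b₀⁻¹ * v⁻¹ := fun v hv =>
    Subtype.ext (hqb v.1 hv)
  have hh₀ : h₀ ∈ Subgroup.closure {a₀, b₀} := by
    have : h ∈ (Subgroup.closure {a₀, b₀}).map D.subtype := by rw [hmap]; exact hh
    obtain ⟨h₁, hh₁, he⟩ := this
    have : h₁ = h₀ := Subtype.ext he
    rwa [← this]
  have hcop₀ : Nat.Coprime (orderOf h₀) p := by
    rw [Subgroup.orderOf_mk]
    exact hcop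
  have hhP₀ : h₀ ∉ Subgroup.centralizer (P₀ : Set D) := by
    intro hc
    apply hhP
    refine Subgroup.mem_centralizer_iff.2 fun v hv => ?_
    have h1 := Subgroup.mem_centralizer_iff.1 hc ⟨v, hPD hv⟩ hv
    exact congrArg Subtype.val h1
  obtain ⟨Γ, i1, i2, q, E, i3, i4, i5, s, π, θ, hq, hs, hπa, hπb, hθadd, hθinj, hθc, hθ1, hP1, hπh, hC⟩ :=
    exists_quotient_rep_cent P₀ hP₀ a₀ b₀ h₀ hgen hqa₀ hqb₀ hh₀ hcop₀ hhP₀
  exact ⟨Γ, i1, i2, q, E, i3, i4, i5, s, π, θ, hq, hs, hπa, hπb, hθadd, hθinj, hθc, hθ1,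
    fun v hv => hP1 v hv, hπh, fun g hg => hC g (Subgroup.mem_centralizer_iff.2 fun v hv =>
      Subtype.ext (Subgroup.mem_centralizer_iff.1 hg v.1 hv))⟩


/-- **A `2`-element of `⟨a, b⟩` acting nontrivially.** -/
theorem exists_two_elt (hp2 : p ≠ 2) (P : Subgroup G)
    (hP : IsPGroup p P) (a b h : G) (han : a ∈ Subgroup.normalizer (P : Set G))
    (hbn : b ∈ Subgroup.normalizer (P : Set G))
    (hqa : ∀ v ∈ P, a * (a * v * a⁻¹ * v⁻¹) * a⁻¹ = a * v * a⁻¹ * v⁻¹)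
    (hqb : ∀ v ∈ P, b * (b * v * b⁻¹ * v⁻¹) * b⁻¹ = b * v * b⁻¹ * v⁻¹)
    (hh : h ∈ Subgroup.closure {a, b}) (hcop : Nat.Coprime (orderOf h) p)
    (hhP : h ∉ Subgroup.centralizer (P : Set G)) :
    ∃ u ∈ Subgroup.closure {a, b}, (∃ k : ℕ, u ^ 2 ^ k = 1) ∧
      u ∉ Subgroup.centralizer (P : Set G) := by
  classical
  have haY : a ∈ Subgroup.closure {a, b} := Subgroup.subset_closure (Or.inl rfl)
  have hbY : b ∈ Subgroup.closure {a, b} := Subgroup.subset_closure (Or.inr rfl)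
  have haD : a ∈ Subgroup.closure {a, b} ⊔ P := Subgroup.mem_sup_left haY
  have hbD : b ∈ Subgroup.closure {a, b} ⊔ P := Subgroup.mem_sup_left hbY
  obtain ⟨Γ, _, _, q, E, _, _, _, s, π, θ, hq, hs, hπa, hπb, -, -, -, -, -, -, hC⟩ :=
    ambient_data_cent P hP a b h han hbn hqa hqb hh hcop hhP haD hbD
  have hYD : Subgroup.closure {a, b} ≤ Subgroup.closure {a, b} ⊔ P := le_sup_left
  let ψ : ↥(Subgroup.closure {a, b}) →* SL(2, E) :=
    π.comp (q.comp (Subgroup.inclusion hYD))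
  have hy : y 1 ∈ ψ.range := ⟨⟨a, haY⟩, hπa⟩
  have hx : x s ∈ ψ.range := ⟨⟨b, hbY⟩, hπb⟩
  obtain ⟨K, hK, ⟨e⟩⟩ := Cfsg.Agent.S0274.result p hp2 ψ.range (one_lt_card_sylow _ hs hy hx)
  -- the element `-1`
  have hne : (-1 : ZMod p) ≠ 1 := by
    haveI : NeZero (2 : ZMod p) := ⟨by
      intro h2
      have h3 : ((2 : ℕ) : ZMod p) = 0 := by exact_mod_cast h2
      rw [ZMod.natCast_eq_zero_iff] at h3
      exact hp2 ((Nat.prime_dvd_prime_iff_eq hp.out Nat.prime_two).1 h3)⟩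
    intro h1
    have h2 : (2 : ZMod p) = 0 := by
      calc (2 : ZMod p) = 1 + 1 := by norm_num
        _ = 1 - (-1) := by ring
        _ = 0 := by rw [h1]; ring
    exact NeZero.ne (2 : ZMod p) h2
  let m : SL(2, ZMod p) := ⟨!![-1, 0; 0, -1], by simp [Matrix.det_fin_two]⟩
  have hm2 : m * m = 1 := by
    apply Subtype.ext
    change (!![-1, 0; 0, -1] : Matrix (Fin 2) (Fin 2) (ZMod p)) * !![-1, 0; 0, -1] = 1
    rw [Matrix.mul_fin_two, Matrix.one_fin_two]
    simp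
  have hm1 : m ≠ 1 := by
    intro h1
    have h2 := congrArg (fun M : SL(2, ZMod p) => M.1 0 0) h1
    simp [m] at h2
    exact hne h2
  set w : ↥K := e.symm m with hw
  have hw1 : w ≠ 1 := by
    intro h1
    apply hm1
    have := congrArg e h1
    simpa [hw] using this
  have hw2 : (w : SL(2, E)) * w = 1 := by
    have : w * w = 1 := by
      rw [hw, ← map_mul, hm2, map_one]
    exact congrArg Subtype.val this
  obtain ⟨u₀, hu₀⟩ := hK w.2
  obtain ⟨r, k, hk, hord⟩ := Nat.exists_eq_pow_mul_and_not_dvd (orderOf_pos u₀).ne' 2 (by norm_num)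
  have hkodd : Odd k := Nat.odd_iff.2 (by omega)
  have hψ : ψ (u₀ ^ k) = (w : SL(2, E)) := by
    rw [map_pow, hu₀]
    obtain ⟨l, rfl⟩ := hkodd
    rw [pow_succ, pow_mul, pow_two, hw2, one_pow, one_mul]
  refine ⟨(u₀ ^ k).1, (u₀ ^ k).2, ⟨r, ?_⟩, ?_⟩
  · have h1 : (u₀ ^ k) ^ 2 ^ r = 1 := by
      rw [← pow_mul, mul_comm, ← hord, pow_orderOf_eq_one]
    exact congrArg Subtype.val h1
  · intro hc
    have h1 : ψ (u₀ ^ k) = 1 := hC ⟨(u₀ ^ k).1, hYD (u₀ ^ k).2⟩ hc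
    rw [hψ] at h1
    exact hw1 (Subtype.ext h1)

end Ambient

end Cfsg.Agent.Lib.InvNorm.TwoElt
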