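import Mathlib
import Cfsg.Agent.Lib.InvNorm.Ring
import Cfsg.Agent.Lib.InvNorm.TwoElt
import Cfsg.Agent.Lib.PGroup.ZJ
import Cfsg.Agent.Lib.PGroup.FrattiniBasis
import Cfsg.Agent.Lib.Coprime.FrattiniAct
import Cfsg.Agent.Lib.PGroup.ActionFrattini

/-!
# The pair lemma

`P` a normal `p`-subgroup of `G`, `p` odd, `a` acting quadratically on `P`, `a ∉ T(P)`. Then some
`2`-element `t` does not centralize `P` and `[t, a] ∈ T(P)`.
-/

namespace Cfsg.Agent.Lib.InvNorm.Pair

open Subgroup Cfsg.Agent.Lib.PGroup.ZJ Cfsg.Agent.Lib.Basic.PCore Cfsg.Agent.Lib.PGroup.QuadG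

universe u

variable {p : ℕ} [hp : Fact p.Prime] {G : Type u} [Group G] [Finite G]

/-- The action on the Frattini quotient. -/
theorem exists_rho (P : Subgroup G) [hPn : P.Normal] (hP : IsPGroup p P) :
    ∃ (V : Type u) (_ : AddCommGroup V) (_ : Module (ZMod p) V) (ρ : G →* AddMonoid.End V)
      (φ : ↥P → V), Function.Surjective φ ∧ (∀ x y, φ (x * y) = φ x + φ y) ∧
      (∀ x, φ x = 0 ↔ x ∈ frattini ↥P) ∧ ∀ g x, ρ g (φ x) = φ (MulAut.conjNormal g x) := by
  classical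
  obtain ⟨V, i1, i2, π, hπ, hker⟩ :=
    Cfsg.Agent.Lib.PGroup.FrattiniBasis.exists_vector_space hP
  let φ : ↥P → V := fun x => Multiplicative.toAdd (π x)
  have hφs : Function.Surjective φ := by
    intro v
    obtain ⟨x, hx⟩ := hπ (Multiplicative.ofAdd v)
    exact ⟨x, by simp [φ, hx]⟩
  have hφa : ∀ x y, φ (x * y) = φ x + φ y := by
    intro x y
    simp [φ, map_mul]
  have hφ0 : ∀ x, φ x = 0 ↔ x ∈ frattini ↥P := by
    intro x
    rw [← hker, MonoidHom.mem_ker]
    exact Iff.rfl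
  have hk : ∀ g : G, π.ker ≤ (π.comp (MulAut.conjNormal g : MulAut ↥P).toMonoidHom).ker := by
    intro g x hx
    rw [hker] at hx
    rw [MonoidHom.mem_ker]
    have h1 : (MulAut.conjNormal g : MulAut ↥P) x ∈ frattini ↥P :=
      (Cfsg.Agent.Lib.PGroup.ActionFrattini.char_mem (frattini ↥P) _).2 hx
    rw [← hker] at h1
    exact h1
  let F : G → (Multiplicative V →* Multiplicative V) := fun g =>
    (π.liftOfSurjective hπ) ⟨π.comp (MulAut.conjNormal g : MulAut ↥P).toMonoidHom, hk g⟩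
  have hF : ∀ g x, F g (π x) = π ((MulAut.conjNormal g : MulAut ↥P) x) := by
    intro g x
    exact MonoidHom.liftOfRightInverse_comp_apply π _ _ _ x
  let R : G → AddMonoid.End V := fun g => AddMonoidHom.toMultiplicative.symm (F g)
  have hR : ∀ g x, R g (φ x) = φ ((MulAut.conjNormal g : MulAut ↥P) x) := by
    intro g x
    show Multiplicative.toAdd (F g (Multiplicative.ofAdd (Multiplicative.toAdd (π x)))) = _
    simp only [ofAdd_toAdd]
    rw [hF]
  have hone : R 1 = (1 : AddMonoid.End V) := by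
    apply AddMonoidHom.ext
    intro v
    obtain ⟨x, rfl⟩ := hφs v
    show R 1 (φ x) = φ x
    rw [hR]
    simp
  have hmul : ∀ g h, R (g * h) = (R g * R h : AddMonoid.End V) := by
    intro g h
    apply AddMonoidHom.ext
    intro v
    obtain ⟨x, rfl⟩ := hφs v
    show R (g * h) (φ x) = R g (R h (φ x))
    rw [hR, hR, hR, map_mul]
    rfl
  exact ⟨V, i1, i2, ⟨⟨R, hone⟩, hmul⟩, φ, hφs, hφa, hφ0, hR⟩

/-- **The pair lemma.** -/
theorem pair_lemma (hp2 : p ≠ 2) (P : Subgroup G) [hPn : P.Normal] (hP : IsPGroup p P) {a : G}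
    (hqa : ∀ v ∈ P, a * (a * v * a⁻¹ * v⁻¹) * a⁻¹ = a * v * a⁻¹ * v⁻¹) (hT : a ∉ TT p P) :
    ∃ t : G, (∃ k : ℕ, t ^ 2 ^ k = 1) ∧ t ∉ centralizer (P : Set G) ∧
      t * a * t⁻¹ * a⁻¹ ∈ TT p P := by
  classical
  -- the pair
  let C : Subgroup G := centralizer (P : Set G)
  let f : G →* G ⧸ C := QuotientGroup.mk' C
  have hfs : Function.Surjective f := QuotientGroup.mk'_surjective C
  have htop : ∀ g : G, g ∈ normalizer (P : Set G) := fun g => by
    rw [Subgroup.normalizer_eq_top_iff.2 hPn]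
    trivial
  obtain ⟨n, hn⟩ := pow_mem_centralizer_of_quad hP (htop a) hqa
  have hx : ∃ n : ℕ, f a ^ p ^ n = 1 := by
    refine ⟨n, ?_⟩
    rw [← map_pow]
    exact (QuotientGroup.eq_one_iff _).2 hn
  have hcore : f a ∉ Cfsg.pCore p (G ⧸ C) := hT
  obtain ⟨gb, y, hy, hk⟩ := exists_conj_not_pgroup hx hcore
  obtain ⟨g, rfl⟩ := hfs gb
  have hy' : y ∈ Subgroup.closure {f a, f (g * a * g⁻¹)} := by
    simpa [map_mul, map_inv] using hy
  obtain ⟨h, hh, hcop, hne⟩ := exists_coprime_lift f hy' hk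
  have hhC : h ∉ centralizer (P : Set G) := by
    intro hc
    exact hne ((QuotientGroup.eq_one_iff _).2 hc)
  obtain ⟨u, huY, ⟨k, huk⟩, huC⟩ := Cfsg.Agent.Lib.InvNorm.TwoElt.exists_two_elt hp2 P hP a
    (g * a * g⁻¹) h (htop a) (htop _) hqa (quad_elem_conj (htop g) hqa) hh hcop hhC
  set b := g * a * g⁻¹ with hb
  have hqb := quad_elem_conj (htop g) hqa
  -- the action
  obtain ⟨V, _, _, ρ, φ, hφs, hφa, hφ0, hρ⟩ := exists_rho P hP
  have hφ1 : φ 1 = 0 := by
    have := hφa 1 1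
    rw [mul_one] at this
    simpa using this
  have hφi : ∀ x, φ x⁻¹ = - φ x := by
    intro x
    have := hφa x x⁻¹
    rw [mul_inv_cancel, hφ1] at this
    exact (neg_eq_of_add_eq_zero_right this.symm).symm
  have hpV : ∀ v : V, p • v = 0 := by
    intro v
    rw [← Nat.cast_smul_eq_nsmul (ZMod p), ZMod.natCast_self, zero_smul]
  -- a coprime element in the kernel centralizes `P`
  have hcen : ∀ w : G, ρ w = 1 → (orderOf w).Coprime p → w ∈ centralizer (P : Set G) := by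
    intro w hw hc
    have hle := Cfsg.Agent.Lib.Coprime.FrattiniAct.le_centralizer_of_frattini (p := p) (T := P)
      (A := zpowers w) hP (fun z _ => htop z) (by rwa [Nat.card_zpowers]) ?_
    · exact hle (mem_zpowers w)
    · intro t ht z hz
      have hzk : z ∈ ρ.ker := by
        have : zpowers w ≤ ρ.ker := by
          rw [zpowers_le]
          exact hw
        exact this hz
      have hρz : ρ z = 1 := hzk
      have h1 := hρ z ⟨t, ht⟩
      rw [hρz] at h1
      have h2 : φ (⟨t, ht⟩⁻¹ * (MulAut.conjNormal z : MulAut ↥P) ⟨t, ht⟩) = 0 := by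
        rw [hφa, hφi, ← h1]
        simp
      rw [hφ0] at h2
      exact ⟨_, h2, rfl⟩
  -- the kernel lies in `T(P)`
  have hker : ∀ w : G, ρ w = 1 → w ∈ TT p P := by
    have hle : ρ.ker.map f ≤ Cfsg.pCore p (G ⧸ C) := by
      refine le_pCore (Subgroup.Normal.map inferInstance f hfs) ?_
      rintro ⟨z, w, hw, rfl⟩
      obtain ⟨e, m, hm, hord⟩ := Nat.exists_eq_pow_mul_and_not_dvd (orderOf_pos w).ne' p
        hp.out.ne_one
      have hw1 : ρ (w ^ p ^ e) = 1 := by
        rw [map_pow, show ρ w = 1 from hw, one_pow]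
      have hord2 : orderOf (w ^ p ^ e) = m := by
        rw [orderOf_pow' w (pow_ne_zero e hp.out.ne_zero), hord]
        rw [Nat.gcd_eq_right (dvd_mul_right _ _)]
        exact Nat.mul_div_cancel_left _ (pow_pos hp.out.pos e)
      have hc : (orderOf (w ^ p ^ e)).Coprime p := by
        rw [hord2]
        exact ((Nat.Prime.coprime_iff_not_dvd hp.out).2 hm).symm
      have h3 := hcen _ hw1 hc
      refine ⟨e, Subtype.ext ?_⟩
      show f w ^ p ^ e = 1
      rw [← map_pow]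
      exact (QuotientGroup.eq_one_iff _).2 h3
    intro w hw
    exact hle ⟨w, hw, rfl⟩
  -- `ρ u ≠ 1`
  have hordu : (orderOf u).Coprime p := by
    have h1 : orderOf u ∣ 2 ^ k := orderOf_dvd_of_pow_eq_one huk
    refine Nat.Coprime.coprime_dvd_left h1 (Nat.Coprime.pow_left k ?_)
    exact ((Nat.Prime.coprime_iff_not_dvd Nat.prime_two).2 (fun h2 =>
      hp2 ((Nat.prime_dvd_prime_iff_eq Nat.prime_two hp.out).1 h2).symm))
  have hρu : ρ u ≠ 1 := fun h1 => huC (hcen u h1 hordu)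
  -- the involution
  have hex : ∃ r : ℕ, ρ u ^ 2 ^ r = 1 := ⟨k, by rw [← map_pow, huk, map_one]⟩
  set r := Nat.find hex with hr
  have hr1 : ρ u ^ 2 ^ r = 1 := Nat.find_spec hex
  have hr0 : r ≠ 0 := by
    intro h0
    rw [h0, pow_zero, pow_one] at hr1
    exact hρu hr1
  obtain ⟨r', hr'⟩ := Nat.exists_eq_succ_of_ne_zero hr0
  have hr2 : ρ u ^ 2 ^ r' ≠ 1 := Nat.find_min hex (by omega)
  let t : G := u ^ 2 ^ r'
  have htY : t ∈ Subgroup.closure {a, b} := pow_mem huY _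
  have ht2 : ρ t * ρ t = 1 := by
    rw [map_pow, ← pow_add, ← two_mul, ← pow_succ', ← Nat.succ_eq_add_one, ← hr']
    exact hr1
  have ht1 : ρ t ≠ 1 := by
    rw [map_pow]
    exact hr2
  -- the quadratic elements
  have hquad : ∀ c : G, (∀ v ∈ P, c * (c * v * c⁻¹ * v⁻¹) * c⁻¹ = c * v * c⁻¹ * v⁻¹) →
      (ρ c - 1) * (ρ c - 1) = 0 := by
    intro c hc
    apply AddMonoidHom.ext
    intro v
    obtain ⟨x, rfl⟩ := hφs v
    have e1 : ∀ x : ↥P, (ρ c - 1) (φ x) = φ (((MulAut.conjNormal c : MulAut ↥P) x) * x⁻¹) := by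
      intro x
      show ρ c (φ x) - φ x = _
      rw [hρ, hφa, hφi, sub_eq_add_neg]
    show (ρ c - 1) ((ρ c - 1) (φ x)) = 0
    rw [e1, e1]
    have h5 : (MulAut.conjNormal c : MulAut ↥P) ((MulAut.conjNormal c : MulAut ↥P) x * x⁻¹) =
        (MulAut.conjNormal c : MulAut ↥P) x * x⁻¹ := by
      apply Subtype.ext
      exact hc x.1 x.2
    rw [h5, mul_inv_cancel, hφ1]
  have hm : (2 * ((p + 1) / 2) : ℕ) • (1 : AddMonoid.End V) = 1 := by
    have h6 : 2 * ((p + 1) / 2) = p + 1 := by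
      have := hp.out.odd_of_ne_two hp2
      obtain ⟨l, hl⟩ := this
      omega
    rw [h6]
    apply AddMonoidHom.ext
    intro v
    show (p + 1) • v = v
    rw [add_smul, hpV, one_smul, zero_add]
  have hcomm := Cfsg.Agent.Lib.InvNorm.Ring.comm_of_inv ρ (a := a) (b := b) (hquad a hqa)
    (hquad b hqb) (by simp) (by simp) hm htY ht2
  refine ⟨t, ⟨k, ?_⟩, ?_, ?_⟩
  · rw [← pow_mul, mul_comm, pow_mul, huk, one_pow]
  · intro hc
    apply ht1
    apply AddMonoidHom.ext
    intro v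
    obtain ⟨x, rfl⟩ := hφs v
    have h8 : (MulAut.conjNormal t : MulAut ↥P) x = x := by
      apply Subtype.ext
      show t * x.1 * t⁻¹ = x.1
      rw [← Subgroup.mem_centralizer_iff.1 hc x.1 x.2]
      group
    exact (hρ t x).trans (by rw [h8]; rfl)
  · apply hker
    have h9 : t * a * t⁻¹ * a⁻¹ = (t * a) * (a * t)⁻¹ := by group
    rw [h9, map_mul (f := ρ) (t * a), map_mul (f := ρ) t a, hcomm, ← map_mul, ← map_mul]
    simp

end Cfsg.Agent.Lib.InvNorm.Pair
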