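import Mathlib
import Cfsg.Agent.Lib.InvNorm.Lift
import Cfsg.Agent.Lib.InvNorm.Pair
import Cfsg.Agent.Lib.PGroup.QdControl

/-!
# Inverted elements and the normalizer of `Z(J(S))`: the local analysis

Reductions: subgroups, the chain lemma, the cases `O_p(G) = 1`, `O_{p'}(G) ≠ 1`.
-/

namespace Cfsg.Agent.Lib.InvNorm.Base

open Subgroup Cfsg.Agent.Lib.PGroup.ZJ Cfsg.Agent.Lib.PGroup.ZJCore Cfsg.Agent.Lib.PGroup.ZJControl
open Cfsg.Agent.Lib.PGroup.QdControl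
open Cfsg.Agent.Lib.PGroup.Replacement (mem_normalizer_of_conj_mem card_lt_of_lt)
open Cfsg.Agent.Lib.Basic.PCore Cfsg.Agent.Lib.Components.PConstrained
open Cfsg.Agent.Lib.InvNorm.Lift
open scoped commutatorElement Pointwise

universe u

variable {p : ℕ} [hp : Fact p.Prime]

/-- The property. -/
def IP (p : ℕ) [Fact p.Prime] (G : Type u) [Group G] : Prop :=
  ∀ S : Sylow p G, HasInv ⊤ (S : Subgroup G) →
    HasInv (normalizer (ZZ 0 (S : Subgroup G) : Set G)) (S : Subgroup G)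

section Gen

variable {G : Type u} [Group G] [Finite G]

/-- From an element of `↥L` to `HasInv`. -/
theorem hasInv_of_elt (L : Subgroup G) (T : Sylow p ↥L) {x n : ↥L} (hx1 : x ≠ 1)
    (hxp : ∃ k : ℕ, x ^ p ^ k = 1) (hinv : n * x * n⁻¹ = x⁻¹) :
    HasInv L ((T : Subgroup L).map L.subtype) := by
  obtain ⟨c, hc⟩ := exists_conj_mem_sylow T hxp
  refine ⟨((c * x * c⁻¹ : ↥L) : G), ⟨_, hc, rfl⟩, ?_, ((c * n * c⁻¹ : ↥L) : G), (c * n * c⁻¹).2, ?_⟩
  · intro h1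
    apply hx1
    have h2 : c * x * c⁻¹ = 1 := Subtype.ext h1
    have h3 : x = c⁻¹ * (c * x * c⁻¹) * c := by group
    rw [h3, h2]
    group
  · have h4 : (c * n * c⁻¹) * (c * x * c⁻¹) * (c * n * c⁻¹)⁻¹ = (c * x * c⁻¹)⁻¹ := by
      have h5 : (c * n * c⁻¹) * (c * x * c⁻¹) * (c * n * c⁻¹)⁻¹ = c * (n * x * n⁻¹) * c⁻¹ := by group
      rw [h5, hinv]
      group
    exact congrArg Subtype.val h4

theorem hasInv_of_elt_sylow (S : Sylow p G) {L : Subgroup G} (h : (S : Subgroup G) ≤ L) {x n : ↥L}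
    (hx1 : x ≠ 1) (hxp : ∃ k : ℕ, x ^ p ^ k = 1) (hinv : n * x * n⁻¹ = x⁻¹) :
    HasInv L (S : Subgroup G) := by
  have := hasInv_of_elt L (S.subtype h) hx1 hxp hinv
  rwa [map_sylow_subtype S h] at this

/-- Transfer of `IP` from a subgroup. -/
theorem hasInv_sub (L : Subgroup G) (hL : IP p ↥L) (T : Sylow p ↥L)
    (h : HasInv L ((T : Subgroup L).map L.subtype)) :
    HasInv (L ⊓ normalizer (ZZ 0 ((T : Subgroup L).map L.subtype) : Set G))
      ((T : Subgroup L).map L.subtype) := by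
  obtain ⟨y, ⟨y₀, hy₀, rfl⟩, hy1, u, hu, e⟩ := h
  obtain ⟨y', hy', hy'1, n, hn, e'⟩ := hL T ⟨y₀, hy₀, fun h0 => hy1 (by rw [h0]; rfl), ⟨u, hu⟩,
    mem_top _, Subtype.ext e⟩
  have hZ := ZZ_map_hom L.subtype (R := (T : Subgroup L)) (fun x _ h => Subtype.ext h) 0
  refine ⟨y', ⟨y', hy', rfl⟩, fun h0 => hy'1 (Subtype.ext h0), n, ⟨n.2, ?_⟩,
    congrArg Subtype.val e'⟩
  rw [← hZ]
  apply mem_normalizer_of_conj_mem
  rintro _ ⟨z, hz, rfl⟩
  exact ⟨n * z * n⁻¹, (mem_normalizer_iff.mp hn z).mp hz, rfl⟩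

/-- No inversion in proper overgroups of the Sylow subgroups. -/
theorem no_inv_over (hsub : ∀ L : Subgroup G, L ≠ ⊤ → IP p ↥L)
    (hno : ∀ S : Sylow p G, ¬ HasInv (normalizer (ZZ 0 (S : Subgroup G) : Set G)) (S : Subgroup G))
    (S : Sylow p G) {L : Subgroup G} (hL : L ≠ ⊤) (hSL : (S : Subgroup G) ≤ L) :
    ¬ HasInv L (S : Subgroup G) := by
  intro h
  have hm := map_sylow_subtype S hSL
  have h1 := hasInv_sub L (hsub L hL) (S.subtype hSL) (by rw [hm]; exact h)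
  rw [hm] at h1
  exact hno S (h1.mono inf_le_right le_rfl)

/-- A `p`-subgroup of `H` lies in a Sylow subgroup of `H`. -/
theorem exists_sylow_ge {H X : Subgroup G} (hXH : X ≤ H) (hX : IsPGroup p X) :
    ∃ T : Sylow p ↥H, X ≤ (T : Subgroup H).map H.subtype := by
  have hX' : IsPGroup p (X.subgroupOf H) := hX.comap_subtype
  obtain ⟨T, hT⟩ := hX'.exists_le_sylow
  exact ⟨T, fun x hx => ⟨⟨x, hXH hx⟩, hT hx, rfl⟩⟩

theorem normalizes_ZZ {R : Subgroup G} {g : G} (hg : g ∈ normalizer (R : Set G)) :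
    g ∈ normalizer (ZZ 0 R : Set G) :=
  mem_normalizer_of_conj_mem fun _ hx =>
    conj_mem_ZZ (fun y hy => (mem_normalizer_iff.mp hg y).mp hy) hx

/-- **The chain lemma.** -/
theorem chain (hsub : ∀ L : Subgroup G, L ≠ ⊤ → IP p ↥L)
    (hno : ∀ S : Sylow p G, ¬ HasInv (normalizer (ZZ 0 (S : Subgroup G) : Set G)) (S : Subgroup G))
    (Pr : Subgroup G → Prop) (hup : ∀ R R' : Subgroup G, R ≤ R' → Pr R → Pr R')
    (hnn : ∀ R : Subgroup G, IsPGroup p R → Pr R → ¬ (ZZ 0 R).Normal)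
    (E₀ : Subgroup G) (hE₀ : normalizer (E₀ : Set G) ≠ ⊤) (T₀ : Sylow p ↥(normalizer (E₀ : Set G)))
    (hPr : Pr ((T₀ : Subgroup _).map (normalizer (E₀ : Set G)).subtype))
    (hinv : HasInv (normalizer (E₀ : Set G))
      ((T₀ : Subgroup _).map (normalizer (E₀ : Set G)).subtype)) : False := by
  classical
  let XX : Set (Subgroup G) := {R | ∃ E : Subgroup G, normalizer (E : Set G) ≠ ⊤ ∧
    ∃ T : Sylow p ↥(normalizer (E : Set G)),
      (T : Subgroup _).map (normalizer (E : Set G)).subtype = R ∧ Pr R ∧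
        HasInv (normalizer (E : Set G)) R}
  obtain ⟨R, ⟨E, hE, T, hTR, hRPr, hRinv⟩, hmax⟩ := Set.exists_max_image XX (fun R => Nat.card R)
    (Set.toFinite _) ⟨_, E₀, hE₀, T₀, rfl, hPr, hinv⟩
  have hRp : IsPGroup p R := by
    rw [← hTR]
    exact T.isPGroup'.map _
  have hRE : R ≤ normalizer (E : Set G) := by
    rw [← hTR]
    exact Subgroup.map_subtype_le _
  obtain ⟨S', hS'⟩ := hRp.exists_le_sylow
  by_cases hRS : R = (S' : Subgroup G)
  · rw [hRS] at hRE hRinv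
    exact no_inv_over hsub hno S' hE hRE hRinv
  have hlt : R < (S' : Subgroup G) := lt_of_le_of_ne hS' hRS
  obtain ⟨x, hxS, hxR, hxN⟩ := Cfsg.Agent.Lib.PGroup.Basic.exists_mem_normalizer_of_lt
    (S'.isPGroup') hlt
  obtain ⟨y, hy, hy1, n, hn, e⟩ := by
    have := hasInv_sub _ (hsub _ hE) T (by rw [hTR]; exact hRinv)
    rw [hTR] at this
    exact this
  have hN : normalizer (ZZ 0 R : Set G) ≠ ⊤ := fun h =>
    hnn R hRp hRPr (Subgroup.normalizer_eq_top_iff.mp h)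
  let W : Subgroup G := (S' : Subgroup G) ⊓ normalizer (R : Set G)
  have hRW : R ≤ W := le_inf hS' Subgroup.le_normalizer
  have hWN : W ≤ normalizer (ZZ 0 R : Set G) := fun g hg => normalizes_ZZ hg.2
  have hWp : IsPGroup p W := (S'.isPGroup').to_le inf_le_left
  obtain ⟨T₂, hT₂⟩ := exists_sylow_ge hWN hWp
  set R₂ := (T₂ : Subgroup _).map (normalizer (ZZ 0 R : Set G)).subtype with hR₂
  have hRR₂ : R < R₂ := by
    refine lt_of_le_of_ne (hRW.trans hT₂) ?_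
    intro h
    exact hxR (by rw [h]; exact hT₂ ⟨hxS, hxN⟩)
  have hmem : R₂ ∈ XX := ⟨ZZ 0 R, hN, T₂, rfl, hup _ _ hRR₂.le hRPr,
    y, hRR₂.le hy, hy1, n, (Subgroup.mem_inf.1 hn).2, e⟩
  have h1 := hmax R₂ hmem
  have h2 := card_lt_of_lt hRR₂
  omega

/-- The case `O_p(G) = 1`. -/
theorem case_core_bot (hsub : ∀ L : Subgroup G, L ≠ ⊤ → IP p ↥L)
    (hno : ∀ S : Sylow p G, ¬ HasInv (normalizer (ZZ 0 (S : Subgroup G) : Set G)) (S : Subgroup G))
    (hQ : Cfsg.pCore p G = ⊥) (S : Sylow p G) (hS : HasInv ⊤ (S : Subgroup G)) : False := by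
  obtain ⟨y, hyS, hy1, g, -, e⟩ := hS
  have hyzp : IsPGroup p (zpowers y) :=
    (S.isPGroup').to_le (by rw [zpowers_le]; exact hyS)
  have hE : normalizer ((zpowers y : Subgroup G) : Set G) ≠ ⊤ := by
    intro h
    have hn := Subgroup.normalizer_eq_top_iff.mp h
    have h1 := le_pCore hn hyzp
    rw [hQ] at h1
    exact hy1 (by simpa using h1 (mem_zpowers y))
  have hgN : g ∈ normalizer ((zpowers y : Subgroup G) : Set G) := by
    apply mem_normalizer_of_conj_mem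
    rintro _ ⟨i, rfl⟩
    simp only
    rw [← conj_zpow, e]
    exact zpow_mem (inv_mem (mem_zpowers y)) i
  obtain ⟨T₀, hT₀⟩ := exists_sylow_ge
    (Subgroup.le_normalizer : zpowers y ≤ normalizer ((zpowers y : Subgroup G) : Set G)) hyzp
  have hyT : y ∈ (T₀ : Subgroup _).map (normalizer ((zpowers y : Subgroup G) : Set G)).subtype :=
    hT₀ (mem_zpowers y)
  refine chain hsub hno (fun R => R ≠ ⊥) ?_ ?_ (zpowers y) hE T₀ ?_ ⟨y, hyT, hy1, g, hgN, e⟩
  · intro R R' hle hR hb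
    exact hR (le_bot_iff.mp (hb ▸ hle))
  · intro R hR hne hn
    have h1 := le_pCore hn (hR.to_le (ZZ_le_self 0 R))
    rw [hQ] at h1
    exact ZZ_ne_bot (Or.inl rfl) hR hne (le_bot_iff.mp h1)
  · intro h
    rw [h] at hyT
    exact hy1 (by simpa using hyT)

/-- The case `O_{p'}(G) ≠ 1`. -/
theorem case_pPrimeCore (hQ : IP p (G ⧸ Cfsg.pPrimeCore p G))
    (hno : ∀ S : Sylow p G, ¬ HasInv (normalizer (ZZ 0 (S : Subgroup G) : Set G)) (S : Subgroup G))
    (hp2 : p ≠ 2) (S : Sylow p G) (hS : HasInv ⊤ (S : Subgroup G)) : False := by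
  set O := Cfsg.pPrimeCore p G with hO
  set φ := QuotientGroup.mk' O with hφ
  have hφs : Function.Surjective φ := QuotientGroup.mk'_surjective _
  have hSp : IsPGroup p (S : Subgroup G) := S.isPGroup'
  let S' : Sylow p (G ⧸ O) := S.mapSurjective hφs
  have hS' : (S' : Subgroup _) = (S : Subgroup G).map φ := rfl
  have hinj := hinj_core hSp
  set Z := ZZ 0 (S : Subgroup G) with hZ
  have hZS : Z ≤ (S : Subgroup G) := ZZ_le_self 0 _
  have hZp : IsPGroup p Z := hSp.to_le hZS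
  have hZm : Z.map φ = ZZ 0 (S' : Subgroup _) := by
    rw [hS']; exact ZZ_map_hom φ hinj 0
  obtain ⟨y, hyS, hy1, g, -, e⟩ := hS
  obtain ⟨y', hy', hy'1, x', hx', e'⟩ := hQ S' ⟨φ y, ⟨y, hyS, rfl⟩,
    fun h => hy1 (hinj y hyS h), φ g, mem_top _, by
      rw [← map_mul, ← map_inv, ← map_mul, e, map_inv]⟩
  obtain ⟨y₀, hy₀, rfl⟩ := hy'
  obtain ⟨x, rfl⟩ := hφs x'
  -- correct `x` into `N(Z)`
  have hZN : Z ≤ normalizer (O : Set G) := by
    rw [Subgroup.normalizer_eq_top_iff.mpr inferInstance]; exact le_top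
  have hleZ : Z.map (MulAut.conj x).toMonoidHom ≤ O ⊔ Z := by
    rintro _ ⟨z, hz, rfl⟩
    have h1 : φ x * φ z * (φ x)⁻¹ ∈ Z.map φ := by
      rw [hZm]
      refine (mem_normalizer_iff.mp hx' _).mp ?_
      rw [← hZm]
      exact ⟨z, hz, rfl⟩
    obtain ⟨w, hw, hwe⟩ := h1
    have h2 : (MulAut.conj x).toMonoidHom z = (x * z * x⁻¹ * w⁻¹) * w := by
      simp only [MulEquiv.coe_toMonoidHom, MulAut.conj_apply]; group
    rw [h2]
    refine Subgroup.mul_mem_sup ?_ hw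
    rw [← QuotientGroup.ker_mk' O, MonoidHom.mem_ker, map_mul, map_mul, map_mul, map_inv, map_inv,
      ← hφ, hwe]
    group
  have hcardZ : Nat.card (Z.map (MulAut.conj x).toMonoidHom) = Nat.card Z := card_map_conj x Z
  obtain ⟨n, hn, hnZ⟩ := Cfsg.Agent.Lib.Coprime.Coset.exists_conj_eq_of_card_eq hZN
    (coprime_card_pgroup_core hZp) (Or.inl (isPGroup_isSolvable hZp)) hleZ hcardZ
  set x₁ := n⁻¹ * x with hx₁
  have hφn : φ n = 1 := by
    rw [← MonoidHom.mem_ker, QuotientGroup.ker_mk']; exact hn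
  have hφx₁ : φ x₁ = φ x := by
    rw [hx₁, map_mul, map_inv, hφn]; simp
  have hx₁N : x₁ ∈ normalizer (Z : Set G) := by
    apply mem_normalizer_of_conj_mem
    intro z hz
    have h1 : x * z * x⁻¹ ∈ Z.map (MulAut.conj n).toMonoidHom := by
      rw [hnZ]
      exact ⟨z, hz, rfl⟩
    obtain ⟨w, hw, hwe⟩ := h1
    have h2 : n * w * n⁻¹ = x * z * x⁻¹ := hwe
    have h3 : x₁ * z * x₁⁻¹ = w := by
      rw [hx₁]
      calc n⁻¹ * x * z * (n⁻¹ * x)⁻¹ = n⁻¹ * (x * z * x⁻¹) * n := by group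
        _ = w := by rw [← h2]; group
    rw [h3]
    exact hw
  -- the lift
  have hSN : (S : Subgroup G) ≤ normalizer (Z : Set G) := sylow_le_normalizer S
  let L : Subgroup G := normalizer (Z : Set G)
  let ψ : ↥L →* (G ⧸ O) := φ.comp L.subtype
  obtain ⟨w, hw1, hwp, m, hm⟩ := lift_inv (p := p) hp2 ψ (y := ⟨y₀, hSN hy₀⟩) (t := ⟨x₁, hx₁N⟩)
    (by
      obtain ⟨k, hk⟩ := hSp ⟨y₀, hy₀⟩
      exact ⟨k, Subtype.ext (by simpa using congrArg Subtype.val hk)⟩)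
    hy'1 (by
      show φ x₁ * φ y₀ * (φ x₁)⁻¹ = (φ y₀)⁻¹
      rw [hφx₁]
      exact e')
  exact hno S (hasInv_of_elt_sylow S hSN hw1 hwp hm)

end Gen

end Cfsg.Agent.Lib.InvNorm.Base
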