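import Mathlib
import Cfsg.Agent.Lib.InvNorm.Base

/-!
# Inverted elements and the normalizer of `Z(J(S))`: the main step
-/

namespace Cfsg.Agent.Lib.InvNorm.Step

open Subgroup Cfsg.Agent.Lib.PGroup.ZJ Cfsg.Agent.Lib.PGroup.ZJCore Cfsg.Agent.Lib.PGroup.ZJControl
open Cfsg.Agent.Lib.PGroup.QdControl
open Cfsg.Agent.Lib.PGroup.Replacement (mem_normalizer_of_conj_mem card_lt_of_lt)
open Cfsg.Agent.Lib.Basic.PCore Cfsg.Agent.Lib.Components.PConstrained
open Cfsg.Agent.Lib.InvNorm.Lift Cfsg.Agent.Lib.InvNorm.Base Cfsg.Agent.Lib.InvNorm.Pair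
open Cfsg.Agent.Lib.PGroup.QuadG
open scoped commutatorElement Pointwise

universe u

variable {p : ℕ} [hp : Fact p.Prime] {G : Type u} [Group G] [Finite G]

theorem le_TT (P : Subgroup G) [P.Normal] {R : Subgroup G} (hRn : R.Normal) (hR : IsPGroup p R) :
    R ≤ TT p P := by
  intro x hx
  rw [mem_TT]
  exact le_pCore (hRn.map _ (QuotientGroup.mk'_surjective _)) (hR.map _) ⟨x, hx, rfl⟩

omit hp [Finite G] in
theorem mem_norm_sup (T : Subgroup G) [hT : T.Normal] {z s : G} [Finite G]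
    (h : s * z * s⁻¹ * z⁻¹ ∈ T) : s ∈ normalizer ((T ⊔ zpowers z : Subgroup G) : Set G) := by
  apply mem_normalizer_of_conj_mem
  have hle : T ⊔ zpowers z ≤ (T ⊔ zpowers z).comap (MulAut.conj s).toMonoidHom := by
    refine sup_le ?_ ?_
    · intro t ht
      exact (le_sup_left : T ≤ T ⊔ zpowers z) (hT.conj_mem t ht s)
    · rw [zpowers_le]
      show s * z * s⁻¹ ∈ T ⊔ zpowers z
      have : s * z * s⁻¹ = (s * z * s⁻¹ * z⁻¹) * z := by group
      rw [this]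
      exact Subgroup.mul_mem_sup h (mem_zpowers z)
  intro x hx
  exact hle hx

theorem map_sup_isPGroup (P : Subgroup G) [P.Normal] {z : G} (hz : ∃ k : ℕ, z ^ p ^ k = 1) :
    IsPGroup p ((TT p P ⊔ zpowers z).map (QuotientGroup.mk' (centralizer (P : Set G)))) := by
  rw [Subgroup.map_sup]
  have h1 : IsPGroup p ((TT p P).map (QuotientGroup.mk' (centralizer (P : Set G)))) :=
    (pCore_isPGroup p).to_le (Subgroup.map_comap_le _ _)
  haveI : ((TT p P).map (QuotientGroup.mk' (centralizer (P : Set G)))).Normal :=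
    (TT_normal p P).map _ (QuotientGroup.mk'_surjective _)
  refine h1.to_sup_of_normal_left ?_
  apply IsPGroup.map
  obtain ⟨k, hk⟩ := hz
  obtain ⟨j, -, hj⟩ := (Nat.dvd_prime_pow hp.out).1 (orderOf_dvd_of_pow_eq_one hk)
  apply IsPGroup.of_card (n := j)
  rw [Nat.card_zpowers, hj]

theorem mem_of_sup_normal (P : Subgroup G) [P.Normal] {z : G} (hz : ∃ k : ℕ, z ^ p ^ k = 1)
    (hn : (TT p P ⊔ zpowers z).Normal) : z ∈ TT p P := by
  rw [mem_TT]
  exact le_pCore (hn.map _ (QuotientGroup.mk'_surjective _)) (map_sup_isPGroup P hz)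
    ⟨z, (le_sup_right : zpowers z ≤ TT p P ⊔ zpowers z) (mem_zpowers z), rfl⟩

theorem isP_elt (S : Sylow p G) {x : G} (hx : x ∈ (S : Subgroup G)) : ∃ k : ℕ, x ^ p ^ k = 1 := by
  obtain ⟨k, hk⟩ := S.isPGroup' ⟨x, hx⟩
  exact ⟨k, by simpa using congrArg Subtype.val hk⟩

/-- All inverted elements lie in `O_p(G)`. -/
theorem all_in_core (hp2 : p ≠ 2) (hsub : ∀ L : Subgroup G, L ≠ ⊤ → IP p ↥L)
    (hno : ∀ S : Sylow p G, ¬ HasInv (normalizer (ZZ 0 (S : Subgroup G) : Set G)) (S : Subgroup G))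
    (hquo : IP p (G ⧸ Cfsg.pCore p G)) (S : Sylow p G) {x g : G} (hx : x ∈ (S : Subgroup G))
    (e : g * x * g⁻¹ = x⁻¹) : x ∈ Cfsg.pCore p G := by
  by_contra hxQ
  set Q := Cfsg.pCore p G with hQ
  haveI hQn : Q.Normal := inferInstance
  set φ := QuotientGroup.mk' Q with hφ
  have hφs : Function.Surjective φ := QuotientGroup.mk'_surjective _
  let S' : Sylow p (G ⧸ Q) := S.mapSurjective hφs
  have hS' : (S' : Subgroup _) = (S : Subgroup G).map φ := rfl
  have hφx : φ x ≠ 1 := fun h => hxQ ((QuotientGroup.eq_one_iff x).1 h)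
  obtain ⟨y', ⟨y₀, hy₀, rfl⟩, hy'1, x', hx', e'⟩ := hquo S' ⟨φ x, ⟨x, hx, rfl⟩, hφx, φ g, mem_top _, by
    rw [← map_mul, ← map_inv, ← map_mul, e, map_inv]⟩
  obtain ⟨t, rfl⟩ := hφs x'
  let L : Subgroup G := (normalizer ((ZZ 0 (S' : Subgroup (G ⧸ Q)) : Subgroup (G ⧸ Q)) : Set (G ⧸ Q))).comap φ
  have hSL : (S : Subgroup G) ≤ L := fun s hs =>
    sylow_le_normalizer S' (⟨s, hs, rfl⟩ : φ s ∈ (S : Subgroup G).map φ)
  have hL : L ≠ ⊤ := by
    intro htop
    have h1 : normalizer ((ZZ 0 (S' : Subgroup (G ⧸ Q)) : Subgroup (G ⧸ Q)) : Set (G ⧸ Q)) = ⊤ := by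
      rw [eq_top_iff]
      intro w _
      obtain ⟨v, rfl⟩ := hφs w
      have : v ∈ L := by rw [htop]; trivial
      exact this
    have hn := Subgroup.normalizer_eq_top_iff.mp h1
    have h2 : IsPGroup p ((ZZ 0 (S' : Subgroup (G ⧸ Q))).comap φ) := by
      apply IsPGroup.comap_of_ker_isPGroup ((S'.isPGroup').to_le (ZZ_le_self 0 _))
      rw [hφ, QuotientGroup.ker_mk']
      exact pCore_isPGroup p
    have h3 := le_pCore (hn.comap φ) h2
    have h4 : ZZ 0 (S' : Subgroup (G ⧸ Q)) = ⊥ := by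
      rw [eq_bot_iff]
      intro w hw
      obtain ⟨v, rfl⟩ := hφs w
      exact (QuotientGroup.eq_one_iff v).2 (h3 hw)
    have h5 : (S' : Subgroup (G ⧸ Q)) = ⊥ := by
      by_contra hne
      exact ZZ_ne_bot (Or.inl rfl) (S'.isPGroup') hne h4
    have h6 : φ x ∈ (S' : Subgroup (G ⧸ Q)) := ⟨x, hx, rfl⟩
    rw [h5, Subgroup.mem_bot] at h6
    exact hφx h6
  let ψ : ↥L →* (G ⧸ Q) := φ.comp L.subtype
  obtain ⟨w, hw1, hwp, m, hm⟩ := lift_inv (p := p) hp2 ψ (y := ⟨y₀, hSL hy₀⟩) (t := ⟨t, hx'⟩)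
    (by
      obtain ⟨k, hk⟩ := isP_elt S hy₀
      exact ⟨k, Subtype.ext (by simpa using hk)⟩)
    hy'1 e'
  exact no_inv_over hsub hno S hL hSL (hasInv_of_elt_sylow S hSL hw1 hwp hm)

/-- `C_G(O_p(G)) ≤ O_p(G)`. -/
theorem cent_le_core (hsub : ∀ L : Subgroup G, L ≠ ⊤ → IP p ↥L)
    (hno : ∀ S : Sylow p G, ¬ HasInv (normalizer (ZZ 0 (S : Subgroup G) : Set G)) (S : Subgroup G))
    (hO : Cfsg.pPrimeCore p G = ⊥) (S : Sylow p G) {y g : G} (hy : y ∈ Cfsg.pCore p G) (hy1 : y ≠ 1)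
    (e : g * y * g⁻¹ = y⁻¹) :
    centralizer (Cfsg.pCore p G : Set G) ≤ Cfsg.pCore p G := by
  set Q := Cfsg.pCore p G with hQ
  haveI hQn : Q.Normal := inferInstance
  by_cases hW : (S : Subgroup G) ⊓ centralizer (Q : Set G) ≤ Q
  · exact centralizer_le_of_inf_le hO S hW
  exfalso
  set C := centralizer (Q : Set G) with hC
  haveI hCn : C.Normal := inferInstance
  obtain ⟨Q₀, hQ₀⟩ := Cfsg.Agent.Lib.Basic.SylowUtil.exists_sylow_inf_normal S C
  obtain ⟨c, hc, n, hn, rfl⟩ := Cfsg.Agent.Lib.Basic.SylowUtil.frattini_argument' Q₀ g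
  rw [hQ₀] at hn
  have hN : normalizer (((S : Subgroup G) ⊓ C : Subgroup G) : Set G) ≠ ⊤ := by
    intro h
    have hnn := Subgroup.normalizer_eq_top_iff.mp h
    exact hW (le_pCore hnn ((S.isPGroup').to_le inf_le_left))
  have hSN : (S : Subgroup G) ≤ normalizer (((S : Subgroup G) ⊓ C : Subgroup G) : Set G) := by
    intro s hs
    apply mem_normalizer_of_conj_mem
    intro x hx
    obtain ⟨hx1, hx2⟩ := Subgroup.mem_inf.1 hx
    exact Subgroup.mem_inf.2 ⟨mul_mem (mul_mem hs hx1) (inv_mem hs), hCn.conj_mem x hx2 s⟩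
  apply no_inv_over hsub hno S hN hSN
  refine ⟨y, pCore_le_sylow S hy, hy1, n, hn, ?_⟩
  have h1 := Subgroup.mem_centralizer_iff.1 hc y hy
  have h2 : n * y * n⁻¹ = c⁻¹ * ((c * n) * y * (c * n)⁻¹) * c := by group
  rw [h2, e]
  have h3 : c * y⁻¹ = y⁻¹ * c := by
    have := (show Commute y c from h1).inv_left.eq
    exact this.symm
  rw [mul_assoc, ← h3, inv_mul_cancel_left]

/-- The case `A ≤ T(D)`: every conjugate of `z` lies in `A`. -/
theorem conj_mem_of_le_TT (S : Sylow p G) {D : Subgroup G} [hDn : D.Normal] {z : G}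
    (hzZ : z ∈ ZZ 0 (S : Subgroup G)) (hzD : z ∈ D) (hconj : ∀ g : G, g * z * g⁻¹ ∈ (S : Subgroup G))
    {A : Subgroup G} (hA : A ∈ AA 0 (S : Subgroup G)) (hAT : A ≤ TT p D) (g : G) :
    g * z * g⁻¹ ∈ A := by
  set R := (S : Subgroup G) ⊓ TT p D with hR
  have hAR : A ≤ R := le_inf hA.1 hAT
  have hARd : A ∈ AA 0 R := ⟨hAR, hA.2.1, fun W hW hW2 => hA.2.2 W (hW.trans inf_le_left) hW2⟩
  have hRD : ∀ U ∈ AA 0 R, U ∈ AA 0 (S : Subgroup G) := fun U hU' =>
    ⟨hU'.1.trans inf_le_left, hU'.2.1, fun W hW hW2 =>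
      (hA.2.2 W hW hW2).trans (hU'.2.2 A hAR hA.2.1)⟩
  have hJ : JJ 0 R ≤ JJ 0 (S : Subgroup G) := sSup_le fun U hU' => AA_le_JJ (hRD U hU')
  have hnorm : ∀ n ∈ normalizer (R : Set G), ∀ x ∈ R, n * x * n⁻¹ ∈ R :=
    fun n hn x hx => (mem_normalizer_iff.mp hn x).mp hx
  obtain ⟨n, hn, c, hc', rfl⟩ := exists_factor S D g
  have hcz : c * z = z * c := (Subgroup.mem_centralizer_iff.mp hc' z hzD).symm
  have he : n * c * z * (n * c)⁻¹ = n * z * n⁻¹ := by
    have : n * c * z * (n * c)⁻¹ = n * (c * z * c⁻¹) * n⁻¹ := by group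
    rw [this, hcz]
    group
  rw [he]
  refine mem_of_comm hA (hconj n) ?_ (by simp)
  intro u hu
  have hu' : n⁻¹ * u * n ∈ JJ 0 R := by
    have := conj_mem_JJ (g := n⁻¹) (R := R) (x := u) (k := 0)
      (hnorm n⁻¹ (inv_mem hn)) (AA_le_JJ hARd hu)
    simpa using this
  have h2 := Subgroup.mem_centralizer_iff.mp hzZ.2.1 _ (hJ hu')
  have h3 : n * z * n⁻¹ * u = n * (z * (n⁻¹ * u * n)) * n⁻¹ := by group
  have h4 : u * (n * z * n⁻¹) = n * ((n⁻¹ * u * n) * z) * n⁻¹ := by group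
  rw [h3, h4, h2]

/-- Powers in a product with a normalized subgroup. -/
theorem pow_mul_mem {M : Subgroup G} {m n : G} (hm : m ∈ M) (hn : n ∈ normalizer (M : Set G))
    (l : ℕ) : ∃ m' ∈ M, (m * n) ^ l = m' * n ^ l := by
  induction l with
  | zero => exact ⟨1, one_mem _, by simp⟩
  | succ l ih =>
    obtain ⟨m', hm', e⟩ := ih
    refine ⟨m' * (n ^ l * m * (n ^ l)⁻¹), mul_mem hm' ((mem_normalizer_iff.1 (pow_mem hn l) m).1 hm), ?_⟩
    rw [pow_succ, e, pow_succ]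
    group

/-- The case where some `a ∈ A` lies outside `T(D)`. -/
theorem case_outside (hp2 : p ≠ 2) (hsub : ∀ L : Subgroup G, L ≠ ⊤ → IP p ↥L)
    (hno : ∀ S : Sylow p G, ¬ HasInv (normalizer (ZZ 0 (S : Subgroup G) : Set G)) (S : Subgroup G))
    (S : Sylow p G) {D : Subgroup G} [hDn : D.Normal] (hDQ : D ≤ Cfsg.pCore p G)
    (hZD : ∀ K : Subgroup G, K.Normal → ZZ 0 (S : Subgroup G) ≤ K → D ≤ K)
    {A : Subgroup G} (hA : A ∈ AA 0 (S : Subgroup G)) (hAD : ¬ D ≤ A)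
    (hqa : ∀ a ∈ A, ∀ v ∈ D, a * (a * v * a⁻¹ * v⁻¹) * a⁻¹ = a * v * a⁻¹ * v⁻¹)
    {a : G} (haA : a ∈ A) (haT : a ∉ TT p D) : False := by
  classical
  have hSp : IsPGroup p (S : Subgroup G) := S.isPGroup'
  have hQS : Cfsg.pCore p G ≤ S := pCore_le_sylow S
  have hDS : D ≤ S := hDQ.trans hQS
  have hDp : IsPGroup p D := hSp.to_le hDS
  have haS : a ∈ (S : Subgroup G) := hA.1 haA
  have hap := isP_elt S haS
  obtain ⟨t, ⟨k, hk⟩, htC, hta⟩ := pair_lemma hp2 D hDp (hqa a haA) haT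
  set M' := TT p D ⊔ zpowers a with hM'
  have hpM : IsPGroup p (M'.map (QuotientGroup.mk' (centralizer (D : Set G)))) :=
    map_sup_isPGroup D hap
  set E' := (S : Subgroup G) ⊓ M' with hE'
  have haE' : a ∈ E' := Subgroup.mem_inf.2 ⟨haS, (le_sup_right : zpowers a ≤ M') (mem_zpowers a)⟩
  have hTM : TT p D ≤ M' := le_sup_left
  have hY : E' ⊔ TT p D = M' := by
    apply le_antisymm
    · exact sup_le inf_le_right hTM
    · refine sup_le le_sup_right ?_
      rw [zpowers_le]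
      exact (le_sup_left : E' ≤ E' ⊔ TT p D) haE'
  obtain ⟨Q₀, hQ₀⟩ := exists_sylow_sup S (M := TT p D) (W := E') (Y := M') inf_le_left
    (inf_le_inf_left _ hTM) hY
  have hQ₀m : (Q₀ : Subgroup ↥M').map M'.subtype = E' := by
    rw [hQ₀]
    exact Subgroup.map_subgroupOf_eq_of_le inf_le_right
  have htN : t ∈ normalizer (M' : Set G) := mem_norm_sup _ hta
  obtain ⟨m, hm, n, hnN, hte⟩ := exists_frattini Q₀ htN
  rw [hQ₀m] at hnN
  have hE'nn : normalizer (E' : Set G) ≠ ⊤ := by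
    intro h
    have hn := Subgroup.normalizer_eq_top_iff.mp h
    have h1 := le_pCore hn (hSp.to_le inf_le_left)
    exact haT (le_TT D inferInstance (pCore_isPGroup p) (h1 haE'))
  have hDE' : D ≤ E' := le_inf hDS ((le_TT D hDn hDp).trans hTM)
  have hAN : A ≤ normalizer (E' : Set G) := by
    intro b hb
    have hbM : b ∈ normalizer (M' : Set G) := by
      apply mem_norm_sup
      have h1 : b * a * b⁻¹ * a⁻¹ = 1 := by
        rw [hA.2.1.1 b hb a haA]
        group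
      rw [h1]
      exact one_mem _
    apply mem_normalizer_of_conj_mem
    intro x hx
    obtain ⟨hx1, hx2⟩ := Subgroup.mem_inf.1 hx
    exact Subgroup.mem_inf.2 ⟨mul_mem (mul_mem (hA.1 hb) hx1) (inv_mem (hA.1 hb)),
      (mem_normalizer_iff.1 hbM x).1 hx2⟩
  -- the `2`-part of `n`
  have hmN : m ∈ normalizer (M' : Set G) := Subgroup.le_normalizer hm
  have hnM : n ∈ normalizer (M' : Set G) := by
    have h1 : n = m⁻¹ * t := by rw [hte]; group
    rw [h1]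
    exact mul_mem (inv_mem hmN) htN
  obtain ⟨r, l, hl, hord⟩ := Nat.exists_eq_pow_mul_and_not_dvd (orderOf_pos n).ne' 2 (by norm_num)
  have hlodd : ¬ 2 ∣ l := hl
  set n₂ := n ^ l with hn₂
  have hn₂2 : n₂ ^ 2 ^ r = 1 := by
    rw [hn₂, ← pow_mul, mul_comm, ← hord, pow_orderOf_eq_one]
  have hn₂C : n₂ ∉ centralizer (D : Set G) := by
    intro hc
    have hn₂M : n₂ ∈ M' := hTM (centralizer_le_TT p D hc)
    obtain ⟨m', hm', e⟩ := pow_mul_mem hm hnM l
    have htl : t ^ l ∈ M' := by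
      rw [hte, e]
      exact mul_mem hm' hn₂M
    set f := QuotientGroup.mk' (centralizer (D : Set G)) with hf
    obtain ⟨j, hj⟩ := hpM ⟨f (t ^ l), ⟨t ^ l, htl, rfl⟩⟩
    have h1 : f t ^ (l * p ^ j) = 1 := by
      rw [pow_mul, ← map_pow]
      have := congrArg Subtype.val hj
      simpa using this
    have h2 : f t ^ 2 ^ k = 1 := by rw [← map_pow, hk, map_one]
    have h3 : Nat.Coprime (l * p ^ j) (2 ^ k) := by
      apply Nat.Coprime.pow_right
      apply Nat.Coprime.mul_left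
      · exact ((Nat.Prime.coprime_iff_not_dvd Nat.prime_two).2 hlodd).symm
      · exact Nat.Coprime.pow_left j ((Nat.coprime_primes hp.out Nat.prime_two).2 hp2)
    have h4 := Nat.Coprime.eq_one_of_dvd (h3.coprime_dvd_left (orderOf_dvd_of_pow_eq_one h1))
      (orderOf_dvd_of_pow_eq_one h2)
    have h5 : f t = 1 := orderOf_eq_one_iff.1 h4
    exact htC ((QuotientGroup.eq_one_iff t).1 h5)
  have hn₂N : n₂ ∈ normalizer (E' : Set G) := pow_mem hnN l
  have htop : n₂ ∈ normalizer (D : Set G) := by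
    rw [Subgroup.normalizer_eq_top_iff.2 hDn]
    trivial
  obtain ⟨y, hyD, hy1, i, e⟩ := exists_inv_of_two_elt htop ⟨r, hn₂2⟩ hn₂C
  obtain ⟨T₁, hT₁⟩ := exists_sylow_ge (H := normalizer (E' : Set G))
    (X := (S : Subgroup G) ⊓ normalizer (E' : Set G)) inf_le_right (hSp.to_le inf_le_left)
  refine chain (p := p) hsub hno
    (fun R => ∃ A₁ : Subgroup G, A₁ ≤ R ∧ PP 0 A₁ ∧ Nat.card A₁ = Nat.card A ∧ ¬ D ≤ A₁)
    ?_ ?_ E' hE'nn T₁ ⟨A, (le_inf hA.1 hAN).trans hT₁, hA.2.1, rfl, hAD⟩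
    ⟨y, hT₁ ⟨hDS hyD, Subgroup.le_normalizer (hDE' hyD)⟩, hy1, n₂ ^ i, pow_mem hn₂N i, e⟩
  · rintro R R' hle ⟨A₁, h1, h2, h3, h4⟩
    exact ⟨A₁, h1.trans hle, h2, h3, h4⟩
  · rintro R hRp ⟨A₁, hA₁R, hA₁P, hA₁c, hA₁D⟩ hKn
    obtain ⟨S', hS'⟩ := hRp.exists_le_sylow
    obtain ⟨g, hg⟩ := MulAction.exists_smul_eq G S S'
    have hS'm : (S' : Subgroup G) = (S : Subgroup G).map (MulAut.conj g).toMonoidHom := by
      rw [← hg, Sylow.coe_subgroup_smul]
      rfl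
    have hAm := AA_map hA (MulAut.conj g)
    rw [← hS'm] at hAm
    have hbound : ∀ V : Subgroup G, V ≤ S' → PP 0 V → Nat.card V ≤ Nat.card A := by
      intro V hV hV2
      have := hAm.2.2 V hV hV2
      rwa [card_map_equiv] at this
    have hA₁AA : A₁ ∈ AA 0 R := ⟨hA₁R, hA₁P, fun V hV hV2 => by
      rw [hA₁c]
      exact hbound V (hV.trans hS') hV2⟩
    have hU : ∀ U ∈ AA 0 R, U ∈ AA 0 (S' : Subgroup G) := fun U hU =>
      ⟨hU.1.trans hS', hU.2.1, fun V hV hV2 =>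
        (hbound V hV hV2).trans (hA₁c ▸ hU.2.2 A₁ hA₁R hA₁P)⟩
    have hZ' : ZZ 0 (S' : Subgroup G) ≤ ZZ 0 R := fun x hx =>
      mem_ZZ_of_forall fun U hU' => ZZ_le (hU U hU') hx
    have hZ : ZZ 0 (S : Subgroup G) ≤ ZZ 0 R := by
      intro x hx
      have h1 : g * x * g⁻¹ ∈ ZZ 0 (S' : Subgroup G) := by
        rw [hS'm, ← ZZ_map]
        exact ⟨x, hx, rfl⟩
      have h2 := hKn.conj_mem _ (hZ' h1) g⁻¹
      have h3 : g⁻¹ * (g * x * g⁻¹) * g⁻¹⁻¹ = x := by group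
      rwa [h3] at h2
    exact hA₁D ((hZD _ hKn hZ).trans (ZZ_le hA₁AA))

/-- The final case. -/
theorem final_case (hp2 : p ≠ 2) (hsub : ∀ L : Subgroup G, L ≠ ⊤ → IP p ↥L)
    (hno : ∀ S : Sylow p G, ¬ HasInv (normalizer (ZZ 0 (S : Subgroup G) : Set G)) (S : Subgroup G))
    (hc : centralizer (Cfsg.pCore p G : Set G) ≤ Cfsg.pCore p G)
    (S : Sylow p G) (hS : HasInv ⊤ (S : Subgroup G)) : False := by
  classical
  set Z := ZZ 0 (S : Subgroup G) with hZdef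
  have hSp : IsPGroup p (S : Subgroup G) := S.isPGroup'
  have hZnn : ¬ Z.Normal := by
    intro hn
    apply hno S
    rw [Subgroup.normalizer_eq_top_iff.2 hn]
    exact hS
  obtain ⟨V, hV, hmax⟩ := Set.exists_max_image {V : Subgroup G | V.Normal ∧ V ≤ Z}
    (fun V => Nat.card V) (Set.toFinite _) ⟨⊥, inferInstance, bot_le⟩
  haveI hVn : V.Normal := hV.1
  have hVZ : V ≤ Z := hV.2
  have hne : ¬ Z ≤ V := by
    intro h
    have : Z = V := le_antisymm h hVZ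
    exact hZnn (this ▸ hVn)
  have hSD : ∀ s ∈ (S : Subgroup G), ∀ x ∈ (S : Subgroup G), s * x * s⁻¹ ∈ (S : Subgroup G) :=
    fun s hs x hx => mul_mem (mul_mem hs hx) (inv_mem hs)
  have hZS : Z ≤ S := ZZ_le_self 0 _
  obtain ⟨z, hzZ, hzV, hzS⟩ := exists_central_mod hSp (fun s _ v hv => hVn.conj_mem v hv s)
    (fun s hs w hw => conj_mem_ZZ (hSD s hs) hw) hZS hne
  set Q := Cfsg.pCore p G with hQdef
  haveI hQn : Q.Normal := inferInstance
  have hQS : Q ≤ S := pCore_le_sylow S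
  have hQp : IsPGroup p Q := pCore_isPGroup p
  have hzcV : ∀ v ∈ V, z * v = v * z := fun v hv =>
    (Subgroup.mem_centralizer_iff.mp hzZ.2.1 v (ZZ_le_JJ _ _ (hVZ hv))).symm
  have hquadQ : ⁅⁅Q, zpowers z⁆, zpowers z⁆ = ⊥ := by
    refine quad_of_commutator_le (K := V) (fun q hq => ?_) hzcV
    have := inv_mem (hzS q (hQS hq))
    rwa [commutatorElement_inv] at this
  have hVQ : V ≤ Q := le_pCore hVn (hSp.to_le (hVZ.trans hZS))
  by_cases hzT : z ∈ TT p Q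
  swap
  · -- `z ∉ T(Q)`
    obtain ⟨t, ⟨k, hk⟩, htC, htz⟩ := pair_lemma hp2 Q hQp (quad_elem hquadQ) hzT
    have hzp := isP_elt S (hZS hzZ)
    have hM : normalizer ((TT p Q ⊔ zpowers z : Subgroup G) : Set G) ≠ ⊤ := by
      intro h
      exact hzT (mem_of_sup_normal Q hzp (Subgroup.normalizer_eq_top_iff.mp h))
    have hSM : (S : Subgroup G) ≤ normalizer ((TT p Q ⊔ zpowers z : Subgroup G) : Set G) := by
      intro s hs
      apply mem_norm_sup
      have h1 : s * z * s⁻¹ * z⁻¹ = ⁅z, s⁆⁻¹ := by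
        rw [commutatorElement_inv, commutatorElement_def]
      rw [h1]
      exact inv_mem (le_TT Q hQn hQp (hVQ (hzS s hs)))
    have htop : t ∈ normalizer (Q : Set G) := by
      rw [Subgroup.normalizer_eq_top_iff.2 hQn]
      trivial
    obtain ⟨y, hyQ, hy1, n, e⟩ := exists_inv_of_two_elt htop ⟨k, hk⟩ htC
    exact no_inv_over hsub hno S hM hSM
      ⟨y, hQS hyQ, hy1, t ^ n, pow_mem (mem_norm_sup _ htz) n, e⟩
  -- `z ∈ Q`
  have hzQ : z ∈ Q := TT_pCore_le hc hzT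
  set NC := normalClosure ({z} : Set G) with hNC
  set D := V ⊔ NC with hDdef
  have hNCQ : NC ≤ Q := Subgroup.normalClosure_le_normal (Set.singleton_subset_iff.mpr hzQ)
  have hDQ : D ≤ Q := sup_le hVQ hNCQ
  have hzD : z ∈ D := (le_sup_right : NC ≤ D) (Subgroup.subset_normalClosure rfl)
  have hconj : ∀ g : G, g * z * g⁻¹ ∈ (S : Subgroup G) := fun g => hQS (hQn.conj_mem z hzQ g)
  have hzcomm : z ∈ commMod Q V := fun q hq => hzS q (hQS hq)
  have hDM : D ≤ commMod Q V :=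
    sup_le le_commMod (Subgroup.normalClosure_le_normal (Set.singleton_subset_iff.mpr hzcomm))
  have hcomm : ⁅D, D⁆ ≤ V := by
    rw [Subgroup.commutator_le]
    intro x hx y hy
    exact hDM hx y (hDQ hy)
  haveI hDn : D.Normal := inferInstance
  have hDSS : D ≤ S := hDQ.trans hQS
  have hDp : IsPGroup p D := hSp.to_le hDSS
  by_cases hall : ∀ U ∈ AA 0 (S : Subgroup G), D ≤ U
  · have hDZ : D ≤ Z := fun x hx => mem_ZZ_of_forall (fun U hU => hall U hU hx)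
    have h1 := hmax D ⟨hDn, hDZ⟩
    have h2 : V = D := Subgroup.eq_of_le_of_card_ge le_sup_left h1
    exact hzV (h2 ▸ hzD)
  push Not at hall
  obtain ⟨U, hU, hUD⟩ := hall
  have hDNS : (S : Subgroup G) ≤ normalizer (D : Set G) := by
    rw [Subgroup.normalizer_eq_top_iff.mpr hDn]
    exact le_top
  obtain ⟨A, hA, -, hAD, hDN⟩ := exists_family_rel hp2 hSp hDSS hDNS (AA 0 (S : Subgroup G))
    (fun A hA => hA.1) (fun A hA => hA.2.1.1)
    (fun A hA b hb Rp => AA_repl (Or.inl rfl) hA Rp (fun x hx => by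
      have := hSD b⁻¹ (inv_mem (hDSS hb)) x hx
      simpa using this))
    hU (hcomm.trans (hVZ.trans (ZZ_le hU))) hUD
  have hqa : ∀ a ∈ A, ∀ v ∈ D, a * (a * v * a⁻¹ * v⁻¹) * a⁻¹ = a * v * a⁻¹ * v⁻¹ := by
    intro a ha
    refine quad_elem (quad_of_commutator_le (K := A) ?_ ?_)
    · intro d hd
      rw [commutatorElement_def]
      exact mul_mem ((mem_normalizer_iff.mp (hDN hd) a).mp ha) (inv_mem ha)
    · intro u hu
      exact hA.2.1.1 a ha u hu
  by_cases hAT : A ≤ TT p D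
  · apply hAD
    refine sup_le (hVZ.trans (ZZ_le hA)) ?_
    rw [hNC, Subgroup.normalClosure, Subgroup.closure_le]
    intro y hy
    obtain ⟨b, hb, hby⟩ := Group.mem_conjugatesOfSet_iff.mp hy
    rw [Set.mem_singleton_iff] at hb
    subst hb
    obtain ⟨c, rfl⟩ := isConj_iff.mp hby
    exact conj_mem_of_le_TT S hzZ hzD hconj hA hAT c
  obtain ⟨a, haA, haT⟩ := SetLike.not_le_iff_exists.1 hAT
  refine case_outside hp2 hsub hno S hDQ ?_ hA hAD hqa haA haT
  intro K hKn hZK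
  refine sup_le (hVZ.trans hZK) ?_
  haveI := hKn
  exact Subgroup.normalClosure_le_normal (Set.singleton_subset_iff.mpr (hZK hzZ))

/-- Conjugation-invariance of failure. -/
theorem hno_all (S : Sylow p G)
    (hnoS : ¬ HasInv (normalizer (ZZ 0 (S : Subgroup G) : Set G)) (S : Subgroup G)) (S' : Sylow p G) :
    ¬ HasInv (normalizer (ZZ 0 (S' : Subgroup G) : Set G)) (S' : Subgroup G) := by
  rintro ⟨y, hy, hy1, n, hn, e⟩
  apply hnoS
  obtain ⟨g, hg⟩ := MulAction.exists_smul_eq G S' S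
  have hSm : (S : Subgroup G) = (S' : Subgroup G).map (MulAut.conj g).toMonoidHom := by
    rw [← hg, Sylow.coe_subgroup_smul]
    rfl
  refine ⟨g * y * g⁻¹, ?_, ?_, g * n * g⁻¹, ?_, ?_⟩
  · rw [hSm]
    exact ⟨y, hy, rfl⟩
  · intro h1
    apply hy1
    have h2 : y = g⁻¹ * (g * y * g⁻¹) * g := by group
    rw [h2, h1]
    group
  · rw [hSm, ← ZZ_map]
    apply mem_normalizer_of_conj_mem
    rintro _ ⟨x, hx, rfl⟩
    refine ⟨n * x * n⁻¹, (mem_normalizer_iff.1 hn x).1 hx, ?_⟩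
    simp only [MulEquiv.coe_toMonoidHom, MulAut.conj_apply]
    group
  · have h5 : (g * n * g⁻¹) * (g * y * g⁻¹) * (g * n * g⁻¹)⁻¹ = g * (n * y * n⁻¹) * g⁻¹ := by group
    rw [h5, e]
    group

/-- **The main step.** -/
theorem ip_step (hp2 : p ≠ 2) (hsub : ∀ L : Subgroup G, L ≠ ⊤ → IP p ↥L)
    (hquo : ∀ (N : Subgroup G) [N.Normal], N ≠ ⊥ → IP p (G ⧸ N)) : IP p G := by
  intro S hS
  by_contra hnoS
  have hno := hno_all S hnoS
  by_cases hO : Cfsg.pPrimeCore p G = ⊥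
  swap
  · exact case_pPrimeCore (hquo _ hO) hno hp2 S hS
  by_cases hQ : Cfsg.pCore p G = ⊥
  · exact case_core_bot hsub hno hQ S hS
  obtain ⟨y, hyS, hy1, g, -, e⟩ := hS
  have hyQ := all_in_core hp2 hsub hno (hquo _ hQ) S hyS e
  have hc := cent_le_core hsub hno hO S hyQ hy1 e
  exact final_case hp2 hsub hno hc S ⟨y, hyS, hy1, g, mem_top _, e⟩

/-- Induction on the order. -/
theorem ip_all (hp2 : p ≠ 2) : ∀ (n : ℕ) (G : Type u) [Group G] [Finite G], Nat.card G = n → IP p G := by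
  intro n
  induction n using Nat.strong_induction_on with
  | _ n IH =>
    intro G _ _ hn
    refine ip_step hp2 ?_ ?_
    · intro L hL
      have hlt : Nat.card L < n := by
        rw [← hn]
        exact card_lt_of_lt (lt_top_iff_ne_top.mpr hL) |>.trans_eq (by simp)
      exact IH _ hlt L rfl
    · intro N _ hN
      have hlt : Nat.card (G ⧸ N) < n := by
        rw [← hn]
        have h1 : Nat.card G = Nat.card N * Nat.card (G ⧸ N) := by
          rw [Subgroup.card_eq_card_quotient_mul_card_subgroup N, mul_comm]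
        have h2 : 1 < Nat.card N := by
          obtain ⟨⟨x, hx⟩, hx1⟩ := Subgroup.ne_bot_iff_exists_ne_one.mp hN
          exact Finite.one_lt_card_iff_nontrivial.mpr ⟨⟨⟨x, hx⟩, 1, hx1⟩⟩
        have h3 : 0 < Nat.card (G ⧸ N) := Nat.card_pos
        rw [h1]
        nlinarith
      exact IH _ hlt (G ⧸ N) rfl

/-- **Theorem.** `p` odd: if a nonidentity element of a Sylow `p`-subgroup `S` is inverted in `G`, then
a nonidentity element of `S` is inverted in the normalizer of `Z(J(S))`. -/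
theorem inv_main (hp2 : p ≠ 2) (S : Sylow p G) {y g : G} (hy : y ∈ (S : Subgroup G)) (hy1 : y ≠ 1)
    (e : g * y * g⁻¹ = y⁻¹) :
    ∃ x ∈ (S : Subgroup G), x ≠ 1 ∧ ∃ n ∈ normalizer (ZZ 0 (S : Subgroup G) : Set G),
      n * x * n⁻¹ = x⁻¹ :=
  ip_all hp2 _ G rfl S ⟨y, hy, hy1, g, mem_top _, e⟩

end Cfsg.Agent.Lib.InvNorm.Step
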