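import Mathlib
import Cfsg.Agent.Lib.InvNorm.Step

/-!
# Normal Sylow `2`-subgroups and inverted elements
-/

namespace Cfsg.Agent.Lib.InvNorm.NormalTwo

open Subgroup Cfsg.Agent.Lib.Basic.PCore Cfsg.Agent.Lib.InvNorm.Lift

universe u

/-- In a group with a normal Sylow `2`-subgroup no odd prime-power element is inverted. -/
theorem no_inv_of_normal_sylow {H : Type*} [Group H] [Finite H]
    (hn : ∀ P : Sylow 2 H, (P : Subgroup H).Normal) {q : ℕ} [hq' : Fact q.Prime] (hq : q ≠ 2) {x n : H}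
    (hx1 : x ≠ 1) (hxq : ∃ k : ℕ, x ^ q ^ k = 1) (hinv : n * x * n⁻¹ = x⁻¹) : False := by
  obtain ⟨P₀⟩ : Nonempty (Sylow 2 H) := inferInstance
  haveI : (P₀ : Subgroup H).Normal := hn P₀
  let f : H →* H ⧸ (P₀ : Subgroup H) := QuotientGroup.mk' _
  have hodd : Odd (orderOf (f n)) := by
    have h1 : ¬ 2 ∣ (P₀ : Subgroup H).index := P₀.not_dvd_index
    rw [Subgroup.index_eq_card] at h1
    have h2 : orderOf (f n) ∣ Nat.card (H ⧸ (P₀ : Subgroup H)) := orderOf_dvd_natCard _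
    exact Nat.odd_iff.2 (by
      by_contra h3
      exact h1 (dvd_trans (Nat.dvd_of_mod_eq_zero (by omega)) h2))
  have h3 : f n * f x * (f n)⁻¹ = (f x)⁻¹ := by
    rw [← map_mul, ← map_inv, ← map_mul, hinv, map_inv]
  have h4 := odd_pow_inv h3 hodd
  rw [pow_orderOf_eq_one] at h4
  simp only [one_mul, inv_one, mul_one] at h4
  obtain ⟨k, hk⟩ := hxq
  have h5 : f x * f x = 1 := by
    nth_rw 1 [h4]
    simp
  have h6 : orderOf (f x) ∣ q ^ k := orderOf_dvd_of_pow_eq_one (by rw [← map_pow, hk, map_one])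
  have h7 : orderOf (f x) ∣ 2 := orderOf_dvd_of_pow_eq_one (by rw [pow_two, h5])
  have h8 : Nat.Coprime (q ^ k) 2 := Nat.Coprime.pow_left k
    ((Nat.coprime_primes hq'.out Nat.prime_two).2 hq)
  have h9 := Nat.Coprime.eq_one_of_dvd (h8.coprime_dvd_left h6) h7
  have h10 : f x = 1 := orderOf_eq_one_iff.1 h9
  have h11 : x ∈ (P₀ : Subgroup H) := (QuotientGroup.eq_one_iff x).1 h10
  obtain ⟨j, hj⟩ := P₀.isPGroup' ⟨x, h11⟩
  have h12 : x ^ 2 ^ j = 1 := by simpa using congrArg Subtype.val hj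
  have h13 : Nat.Coprime (q ^ k) (2 ^ j) := Nat.Coprime.pow_right j h8
  have h14 := Nat.Coprime.eq_one_of_dvd (h13.coprime_dvd_left (orderOf_dvd_of_pow_eq_one hk))
    (orderOf_dvd_of_pow_eq_one h12)
  exact hx1 (orderOf_eq_one_iff.1 h14)

/-- A normal Sylow `2`-subgroup passes to subgroups. -/
theorem normal_sub {G : Type*} [Group G] [Finite G] (hn : ∀ P : Sylow 2 G, (P : Subgroup G).Normal)
    (H : Subgroup G) (P : Sylow 2 ↥H) : (P : Subgroup H).Normal := by
  obtain ⟨P₀⟩ : Nonempty (Sylow 2 G) := inferInstance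
  haveI : (P₀ : Subgroup G).Normal := hn P₀
  have hp : IsPGroup 2 ((P₀ : Subgroup G).subgroupOf H) := P₀.isPGroup'.comap_subtype
  have hle : (P : Subgroup H) ≤ (P₀ : Subgroup G).subgroupOf H := by
    obtain ⟨P', hP'⟩ := (P.isPGroup'.map H.subtype).exists_le_sylow
    haveI := Sylow.unique_of_normal P₀ (hn P₀)
    have he : P' = P₀ := Subsingleton.elim _ _
    intro x hx
    rw [Subgroup.mem_subgroupOf, ← he]
    exact hP' ⟨x, hx, rfl⟩
  have := P.is_maximal' hp hle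
  rw [← this]
  infer_instance

/-- Two involutions generating a non-`2`-group: an odd prime order element inverted. -/
theorem exists_odd_of_involutions {Q : Type*} [Group Q] [Finite Q] {a b y : Q} (ha : a * a = 1)
    (hb : b * b = 1) (hy : y ∈ Subgroup.closure {a, b}) (hk : ∀ k : ℕ, y ^ 2 ^ k ≠ 1) :
    ∃ (q : ℕ) (s : Q), q.Prime ∧ q ≠ 2 ∧ orderOf s = q ∧ a * s * a⁻¹ = s⁻¹ := by
  have hai : a⁻¹ = a := inv_eq_of_mul_eq_one_left ha
  have hbi : b⁻¹ = b := inv_eq_of_mul_eq_one_left hb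
  set r := a * b with hr
  have hri : r⁻¹ = b * a := by rw [hr, mul_inv_rev, hai, hbi]
  have hconj : a * r * a⁻¹ = r⁻¹ := by
    rw [hri, hr, hai]
    calc a * (a * b) * a = (a * a) * b * a := by group
      _ = b * a := by rw [ha, one_mul]
  have hconjz : ∀ i : ℤ, a * r ^ i * a⁻¹ = r ^ (-i) := by
    intro i
    rw [← conj_zpow, hconj, inv_zpow, zpow_neg]
  have hstep : ∀ x : Q, (∃ i : ℤ, x = r ^ i ∨ x = r ^ i * a) → ∀ z ∈ ({a, b} : Set Q),
      ∃ i : ℤ, x * z = r ^ i ∨ x * z = r ^ i * a := by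
    rintro x ⟨i, rfl | rfl⟩ z (rfl | hz)
    · exact ⟨i, Or.inr rfl⟩
    · rw [Set.mem_singleton_iff] at hz
      subst hz
      refine ⟨i - 1, Or.inr ?_⟩
      rw [zpow_sub, zpow_one, hri]
      calc r ^ i * z = r ^ i * (z * (a * a)) := by rw [ha, mul_one]
        _ = _ := by group
    · exact ⟨i, Or.inl (by rw [mul_assoc, ha, mul_one])⟩
    · rw [Set.mem_singleton_iff] at hz
      subst hz
      exact ⟨i + 1, Or.inl (by rw [zpow_add, zpow_one, hr, mul_assoc])⟩
  have hform : ∀ y ∈ Subgroup.closure {a, b}, ∃ i : ℤ, y = r ^ i ∨ y = r ^ i * a := by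
    intro y hy
    induction hy using Subgroup.closure_induction_right with
    | one => exact ⟨0, Or.inl (by simp)⟩
    | mul_right x hx z hz ih => exact hstep x ih z hz
    | mul_inv_cancel x hx z hz ih =>
      rcases hz with rfl | hz
      · rw [hai]
        exact hstep x ih _ (Or.inl rfl)
      · rw [Set.mem_singleton_iff] at hz
        subst hz
        rw [hbi]
        exact hstep x ih _ (Or.inr rfl)
  obtain ⟨i, hi⟩ := hform y hy
  have hyr : y = r ^ i := by
    rcases hi with hi | hi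
    · exact hi
    · exfalso
      apply hk 1
      rw [hi, pow_one, pow_two]
      have h1 : r ^ i * a * (r ^ i * a) = r ^ i * (a * r ^ i * a⁻¹) := by
        rw [hai]
        group
      rw [h1, hconjz, ← zpow_add]
      simp
  have hrk : ∀ k : ℕ, r ^ 2 ^ k ≠ 1 := by
    intro k h1
    apply hk k
    rw [hyr, ← zpow_natCast, ← zpow_mul, mul_comm, zpow_mul, zpow_natCast, h1, one_zpow]
  obtain ⟨e, m, hm, hord⟩ := Nat.exists_eq_pow_mul_and_not_dvd (orderOf_pos r).ne' 2 (by norm_num)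
  have hm1 : m ≠ 1 := by
    rintro rfl
    apply hrk e
    rw [mul_one] at hord
    rw [← hord, pow_orderOf_eq_one]
  have hqp := Nat.minFac_prime hm1
  have hqm := Nat.minFac_dvd m
  have hq2 : m.minFac ≠ 2 := fun h => hm (h ▸ hqm)
  have hqd : m.minFac ∣ orderOf r := hord ▸ Dvd.dvd.mul_left hqm _
  refine ⟨m.minFac, r ^ (orderOf r / m.minFac), hqp, hq2,
    orderOf_pow_orderOf_div (orderOf_pos r).ne' hqd, ?_⟩
  rw [← conj_pow, hconj, inv_pow]

/-- **The criterion**: if no odd prime-power element is inverted, the Sylow `2`-subgroups are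
normal. -/
theorem normal_sylow_of_no_inv {G : Type u} [Group G] [Finite G]
    (h : ∀ (q : ℕ) [Fact q.Prime], q ≠ 2 → ∀ x : G, x ≠ 1 → (∃ k : ℕ, x ^ q ^ k = 1) →
      ∀ g : G, g * x * g⁻¹ ≠ x⁻¹) : ∀ P : Sylow 2 G, (P : Subgroup G).Normal := by
  classical
  set O := Cfsg.pCore 2 G with hO
  haveI hOn : O.Normal := inferInstance
  let f : G →* G ⧸ O := QuotientGroup.mk' O
  have hfs : Function.Surjective f := QuotientGroup.mk'_surjective O
  have hodd : ¬ 2 ∣ Nat.card (G ⧸ O) := by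
    intro h2
    obtain ⟨t, ht⟩ := exists_prime_orderOf_dvd_card' 2 h2
    have ht1 : t ≠ 1 := by
      rintro rfl
      simp at ht
    have hbot : Cfsg.pCore 2 (G ⧸ O) = ⊥ := pCore_quotient_eq_bot
    have hcore : t ∉ Cfsg.pCore 2 (G ⧸ O) := by
      rw [hbot, Subgroup.mem_bot]
      exact ht1
    have hx : ∃ n : ℕ, t ^ 2 ^ n = 1 := ⟨1, by rw [pow_one, ← ht, pow_orderOf_eq_one]⟩
    obtain ⟨g, y, hy, hk⟩ := Cfsg.Agent.Lib.PGroup.QuadG.exists_conj_not_pgroup hx hcore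
    have ha : t * t = 1 := by rw [← pow_two, ← ht, pow_orderOf_eq_one]
    have hb : (g * t * g⁻¹) * (g * t * g⁻¹) = 1 := by
      have : (g * t * g⁻¹) * (g * t * g⁻¹) = g * (t * t) * g⁻¹ := by group
      rw [this, ha]
      group
    obtain ⟨q, s, hqp, hq2, hsq, hst⟩ := exists_odd_of_involutions ha hb hy hk
    haveI : Fact q.Prime := ⟨hqp⟩
    obtain ⟨y₀, rfl⟩ := hfs s
    obtain ⟨t₀, rfl⟩ := hfs t
    obtain ⟨e, m, hm, hord⟩ := Nat.exists_eq_pow_mul_and_not_dvd (orderOf_pos y₀).ne' q hqp.ne_one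
    have hy₁ : (y₀ ^ m) ^ q ^ e = 1 := by
      rw [← pow_mul, mul_comm, ← hord, pow_orderOf_eq_one]
    have hne : f (y₀ ^ m) ≠ 1 := by
      intro h1
      rw [map_pow] at h1
      have := orderOf_dvd_of_pow_eq_one h1
      rw [hsq] at this
      exact hm this
    obtain ⟨x, hx1, hxp, n, hn⟩ := lift_inv (p := q) hq2 f (y := y₀ ^ m) (t := t₀) ⟨e, hy₁⟩ hne (by
      rw [map_pow, ← conj_pow, hst, inv_pow])
    exact h q hq2 x hx1 hxp n hn
  intro P
  have hPO : (P : Subgroup G) ≤ O := by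
    intro x hx
    obtain ⟨k, hk⟩ := P.isPGroup' ⟨x, hx⟩
    have h1 : x ^ 2 ^ k = 1 := by simpa using congrArg Subtype.val hk
    have h2 : orderOf (f x) ∣ 2 ^ k :=
      orderOf_dvd_of_pow_eq_one (by rw [← map_pow, h1, map_one])
    have h3 : orderOf (f x) ∣ Nat.card (G ⧸ O) := orderOf_dvd_natCard _
    have h4 : Nat.Coprime (2 ^ k) (Nat.card (G ⧸ O)) :=
      Nat.Coprime.pow_left k ((Nat.Prime.coprime_iff_not_dvd Nat.prime_two).2 hodd)
    have h5 := Nat.Coprime.eq_one_of_dvd (h4.coprime_dvd_left h2) h3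
    exact (QuotientGroup.eq_one_iff x).1 (orderOf_eq_one_iff.1 h5)
  have heq : (P : Subgroup G) = O := le_antisymm hPO (pCore_le_sylow P)
  rw [heq]
  exact hOn

end Cfsg.Agent.Lib.InvNorm.NormalTwo
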